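import Cfsg.Agent.Lib.Fischer.FourProduct.Tetrads
import Cfsg.Agent.Lib.Fischer.PrimeFree.Tetrad
import Cfsg.Agent.Lib.Fischer.M24Seven.Normal

/-!
Groups of type M(24): the order of the centralizer of a product of four commuting members.
-/

set_option autoImplicit false
set_option linter.unusedSectionVars false

namespace CfsgLib.Fischer.FourProduct

open CfsgLib.Fischer CfsgLib.InvChar.FischerProducts CfsgLib.Fischer.MaxCommuting
open CfsgLib.Fischer.PrimeFree (cset)
open scoped Classical

variable {G : Type*} [Group G] [Finite G] {D : Set G}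
variable (hD : Cfsg.IsThreeTranspositionGroup D) (hprim : Cfsg.IsPrimitiveUnderConj D)
  (ht : Cfsg.IsOfTypeM24 G D)

/-- The centralizer of the entries of a list. -/
def cent (l : List G) : Subgroup G := Subgroup.centralizer {a : G | a ∈ l}

omit [Finite G] in
theorem mem_cent {l : List G} {g : G} : g ∈ cent l ↔ ∀ a ∈ l, Commute g a := by
  rw [cent, Subgroup.mem_centralizer_iff]
  exact ⟨fun h a ha => (h a ha).symm, fun h a ha => (h a ha).symm⟩

omit [Finite G] in
theorem cent_inf (l : List G) (x : G) : cent l ⊓ Subgroup.centralizer ({x} : Set G) = cent (x :: l) := by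
  ext g
  rw [Subgroup.mem_inf, mem_cent, mem_cent, Subgroup.mem_centralizer_singleton_iff, List.forall_mem_cons]
  exact and_comm

include hD hprim ht

/-- The orbit of a further member under the centralizer of a list. -/
theorem natCard_cent_cons {l : List G} (hlen : l.length ≤ 4) (hl : ∀ a ∈ l, a ∈ D) (hn : l.Nodup)
    (hc : ∀ a ∈ l, ∀ b ∈ l, Commute a b) {x : G} (hx : x ∈ cset D l) :
    (cset D l).ncard * Nat.card (cent (x :: l)) = Nat.card (cent l) := by
  have h := M24Seven.natCard_conj_orbit (cent l) x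
  rw [cent_inf] at h
  convert h using 3
  refine Set.ext fun y => ⟨fun hy => ?_, ?_⟩
  · have hlist : ∀ w ∈ cset D l, (w :: l).Nodup ∧ (∀ a ∈ w :: l, a ∈ D) ∧
        ∀ a ∈ w :: l, ∀ b ∈ w :: l, Commute a b := by
      intro w hw
      refine ⟨List.nodup_cons.2 ⟨fun k => (hw.2 w k).1 rfl, hn⟩, List.forall_mem_cons.2 ⟨hw.1, hl⟩, ?_⟩
      simp only [List.forall_mem_cons]
      exact ⟨⟨Commute.refl w, fun a ha => (hw.2 a ha).2.symm⟩, fun a ha => ⟨(hw.2 a ha).2, hc a ha⟩⟩
    obtain ⟨hnx, hDx, hcx⟩ := hlist x hx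
    obtain ⟨hny, hDy, hcy⟩ := hlist y hy
    obtain ⟨g, hg⟩ := TypeTwentyFour.trans_le_five hD hprim ht (m := l.length + 1) (by omega) (x :: l) (y :: l)
      hnx hny rfl rfl hDx hDy hcx hcy
    rw [List.map_cons, List.cons.injEq] at hg
    refine ⟨g, mem_cent.2 fun a ha => mul_inv_eq_iff_eq_mul.1 ?_, hg.1⟩
    have := List.map_eq_iff.1 (hg.2.trans (List.map_id l).symm)
    obtain ⟨i, hi, rfl⟩ := List.mem_iff_getElem.1 ha
    have h2 := this i
    rw [List.getElem?_map, List.getElem?_eq_getElem hi] at h2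
    simpa using h2.symm
  · rintro ⟨k, hk, rfl⟩
    refine ⟨hD.2.1 k x hx.1, fun a ha => ?_⟩
    have hka : k * a * k⁻¹ = a := by rw [(mem_cent.1 hk a ha).eq, mul_inv_cancel_right]
    rw [← hka]
    exact ⟨fun e => (hx.2 a ha).1 (mul_left_cancel (mul_right_cancel e)), (conj_commute_iff k a x).2 (hx.2 a ha).2⟩

/-- The centralizer of four commuting members. -/
theorem natCard_cent_four {a b c d : G} (hl : ∀ x ∈ [a, b, c, d], x ∈ D) (hn : [a, b, c, d].Nodup)
    (hc : ∀ x ∈ [a, b, c, d], ∀ y ∈ [a, b, c, d], Commute x y) :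
    Nat.card (cent [a, b, c, d]) = 2 ^ 18 * 405 := by
  simp only [List.nodup_cons, List.mem_cons, List.not_mem_nil, or_false, not_or, List.nodup_nil, and_true,
    not_false_eq_true] at hn
  simp only [List.forall_mem_cons, List.not_mem_nil, IsEmpty.forall_iff, implies_true, and_true] at hl hc
  obtain ⟨ha, hb, hcc, hd⟩ := hl
  obtain ⟨⟨-, cab, cac, cad⟩, ⟨-, -, cbc, cbd⟩, ⟨-, -, -, ccd⟩, -⟩ := hc
  have e0 := natCard_cent_cons hD hprim ht (l := []) (by simp) (by simp) List.nodup_nil (by simp) (x := d)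
    ⟨hd, by simp⟩
  have e1 := natCard_cent_cons hD hprim ht (l := [d]) (by simp) (by simp [hd]) (by simp) (by simp) (x := c)
    ⟨hcc, by simp [hn.2.2, ccd.symm]⟩
  have e2 := natCard_cent_cons hD hprim ht (l := [c, d]) (by simp) (by simp [hcc, hd]) (by simp [hn.2.2])
    (by simp [ccd, ccd.symm]) (x := b) ⟨hb, by simp [hn.2.1, cbc.symm, cbd.symm]⟩
  have e3 := natCard_cent_cons hD hprim ht (l := [b, c, d]) (by simp) (by simp [hb, hcc, hd])
    (by simp [hn.2.1, hn.2.2]) (by simp [cbc, cbc.symm, cbd, cbd.symm, ccd, ccd.symm]) (x := a)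
    ⟨ha, by simp [hn.1, cab.symm, cac.symm, cad.symm]⟩
  rw [show (cset D ([] : List G)) = D by ext y; simp [cset], TypeTwentyFour.ncard_eq hD hprim ht,
    show cent ([] : List G) = ⊤ by ext g; simp [mem_cent], Subgroup.card_top,
    TypeTwentyFour.natCard_group hD hprim ht] at e0
  rw [PrimeFree.ncard_cset_one hD hprim ht hd] at e1
  rw [PrimeFree.ncard_cset_two hD hprim ht hcc ⟨hd, Ne.symm hn.2.2, ccd⟩] at e2
  rw [PrimeFree.ncard_cset_three hD hprim ht hb ⟨hcc, Ne.symm hn.2.1.1, cbc⟩ ⟨hd, Ne.symm hn.2.1.2, cbd⟩ hn.2.2 ccd]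
    at e3
  rw [← e1, ← e2, ← e3] at e0
  norm_num at e0
  omega

variable {z : G}

/-- Two orderings of tetrads are conjugate under the centralizer of the product. -/
theorem exists_conj_tetrad {l l' : List G} (hl : IsTetrad D z l.toFinset) (hl' : IsTetrad D z l'.toFinset)
    (hn : l.Nodup) (hn' : l'.Nodup) : ∃ g, Commute g z ∧ l.map (MulAut.conj g) = l' := by
  have hlen : ∀ {m : List G}, IsTetrad D z m.toFinset → m.Nodup → m.length = 4 := fun hm hmn =>
    (List.toFinset_card_of_nodup hmn).symm.trans hm.card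
  have hprod : ∀ {m : List G}, IsTetrad D z m.toFinset → m.Nodup → m.prod = z := fun hm hmn => by
    rw [← hm.prod, word_toFinset hmn fun a ha b hb =>
      hm.comm a (List.mem_toFinset.2 ha) b (List.mem_toFinset.2 hb)]
  obtain ⟨g, hg⟩ := TypeTwentyFour.trans_le_five hD hprim ht (m := 4) (by norm_num) l l' hn hn' (hlen hl hn)
    (hlen hl' hn') (fun a ha => hl.sub a (List.mem_toFinset.2 ha)) (fun a ha => hl'.sub a (List.mem_toFinset.2 ha))
    (fun a ha b hb => hl.comm a (List.mem_toFinset.2 ha) b (List.mem_toFinset.2 hb))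
    (fun a ha b hb => hl'.comm a (List.mem_toFinset.2 ha) b (List.mem_toFinset.2 hb))
  refine ⟨g, mul_inv_eq_iff_eq_mul.1 ?_, hg⟩
  have := congrArg List.prod hg
  rwa [← map_list_prod, hprod hl hn, hprod hl' hn', MulAut.conj_apply] at this

/-- The order of the centralizer of the product. -/
theorem natCard_centralizer {T : Finset G} (hT : IsTetrad D z T) :
    Nat.card (Subgroup.centralizer ({z} : Set G)) = 2 ^ 22 * 76545 := by
  obtain ⟨l, rfl, hn⟩ : ∃ l : List G, l.toFinset = T ∧ l.Nodup := ⟨T.toList, T.toList_toFinset, T.nodup_toList⟩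
  match l, (List.toFinset_card_of_nodup hn).symm.trans hT.card with
  | [a, b, c, d], _ =>
  have hmem : ∀ x ∈ [a, b, c, d], x ∈ [a, b, c, d].toFinset := fun x hx => List.mem_toFinset.2 hx
  have hd : ∀ x y u v : G, [x, y, u, v].Nodup → IsTetrad D z [x, y, u, v].toFinset → v = u * y * x * z := by
    intro x y u v hn' hT'
    have hp : x * (y * (u * v)) = z := by
      rw [← hT'.prod, word_toFinset hn' fun p hp q hq =>
        hT'.comm p (List.mem_toFinset.2 hp) q (List.mem_toFinset.2 hq)]
      simp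
    rw [← hp, show u * y * x * (x * (y * (u * v))) = u * (y * (x * x) * y) * (u * v) by group,
      sq_eq_one hD.1 (hT'.sub x (by simp)), mul_one, sq_eq_one hD.1 (hT'.sub y (by simp)), mul_one, ← mul_assoc,
      sq_eq_one hD.1 (hT'.sub u (by simp)), one_mul]
  set K := Subgroup.centralizer ({z} : Set G) with hK
  set Ka := K ⊓ Subgroup.centralizer ({a} : Set G) with hKa
  set Kab := Ka ⊓ Subgroup.centralizer ({b} : Set G) with hKab
  have h1 := M24Seven.natCard_conj_orbit K a
  have h2 := M24Seven.natCard_conj_orbit Ka b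
  have h3 := M24Seven.natCard_conj_orbit Kab c
  have hz : ∀ {g : G}, g ∈ K ↔ Commute g z := Subgroup.mem_centralizer_singleton_iff
  have hfix : ∀ g x : G, Commute g x → g * x * g⁻¹ = x := fun g x h => by rw [h.eq, mul_inv_cancel_right]
  have o1 : {y : G | ∃ k ∈ K, k * a * k⁻¹ = y} = {y : G | y ∈ D ∧ Commute z y} := by
    ext y
    constructor
    · rintro ⟨k, hk, rfl⟩
      refine ⟨hD.2.1 k a (hT.sub a (hmem a (by simp))), ?_⟩
      rw [← hfix k z (hz.1 hk)]
      exact (conj_commute_iff k z a).2 (hT.commute_z (hmem a (by simp))).symm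
    · rintro ⟨hy, hyz⟩
      obtain ⟨T', hT', hyT⟩ := exists_tetrad_of_commute hD hprim ht hT hy hyz.symm
      have hl' : (y :: (T'.erase y).toList).Nodup :=
        List.nodup_cons.2 ⟨by simp, Finset.nodup_toList _⟩
      have he : (y :: (T'.erase y).toList).toFinset = T' := by
        rw [List.toFinset_cons, Finset.toList_toFinset, Finset.insert_erase hyT]
      obtain ⟨g, hg, hgl⟩ := exists_conj_tetrad hD hprim ht hT (l' := y :: (T'.erase y).toList) (by rw [he]; exact hT') hn hl'
      simp only [List.map_cons, List.cons.injEq] at hgl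
      exact ⟨g, hz.2 hg, hgl.1⟩
  have o2 : {y : G | ∃ k ∈ Ka, k * b * k⁻¹ = y} = (([b, c, d].toFinset : Finset G) : Set G) := by
    ext y
    rw [Finset.mem_coe, List.mem_toFinset]
    constructor
    · rintro ⟨k, ⟨hk, hka⟩, rfl⟩
      have hT' := hT.conj hD hprim ht (hz.1 hk)
      have hka' := hfix k a (Subgroup.mem_centralizer_singleton_iff.1 hka)
      have := eq_of_mem hD hprim ht hT' hT (x := a) (Finset.mem_image.2 ⟨a, by simp, hka'⟩) (by simp)
      have hmemk : k * b * k⁻¹ ∈ [a, b, c, d].toFinset := this ▸ Finset.mem_image.2 ⟨b, by simp, rfl⟩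
      rcases List.mem_cons.1 (List.mem_toFinset.1 hmemk) with h | h
      · exact absurd (mul_left_cancel (mul_right_cancel (h.trans hka'.symm))) (by simp at hn; tauto)
      · exact h
    · intro hy
      obtain ⟨u, v, hp⟩ : ∃ u v, [a, y, u, v].Perm [a, b, c, d] := by
        simp only [List.mem_cons, List.not_mem_nil, or_false] at hy
        rcases hy with rfl | rfl | rfl
        · exact ⟨c, d, List.Perm.refl _⟩
        · exact ⟨b, d, (List.Perm.swap _ _ _).cons a⟩
        · exact ⟨b, c, (List.perm_append_comm (l₁ := [y]) (l₂ := [b, c])).cons a⟩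
      obtain ⟨g, hg, hgl⟩ := exists_conj_tetrad hD hprim ht hT
        (l' := [a, y, u, v]) (by rwa [List.toFinset_eq_of_perm _ _ hp]) hn (hp.nodup_iff.2 hn)
      simp only [List.map_cons, List.cons.injEq, MulAut.conj_apply] at hgl
      exact ⟨g, ⟨hz.2 hg, Subgroup.mem_centralizer_singleton_iff.2 (mul_inv_eq_iff_eq_mul.1 hgl.1)⟩, hgl.2.1⟩
  have o3 : {y : G | ∃ k ∈ Kab, k * c * k⁻¹ = y} = (([c, d].toFinset : Finset G) : Set G) := by
    ext y
    rw [Finset.mem_coe, List.mem_toFinset]
    constructor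
    · rintro ⟨k, ⟨⟨hk, hka⟩, hkb⟩, rfl⟩
      have hT' := hT.conj hD hprim ht (hz.1 hk)
      have hka' := hfix k a (Subgroup.mem_centralizer_singleton_iff.1 hka)
      have hkb' := hfix k b (Subgroup.mem_centralizer_singleton_iff.1 hkb)
      have := eq_of_mem hD hprim ht hT' hT (x := a) (Finset.mem_image.2 ⟨a, by simp, hka'⟩) (by simp)
      have hmemk : k * c * k⁻¹ ∈ [a, b, c, d].toFinset := this ▸ Finset.mem_image.2 ⟨c, by simp, rfl⟩
      rcases List.mem_cons.1 (List.mem_toFinset.1 hmemk) with h | h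
      · exact absurd (mul_left_cancel (mul_right_cancel (h.trans hka'.symm))) (by simp at hn; tauto)
      rcases List.mem_cons.1 h with h | h
      · exact absurd (mul_left_cancel (mul_right_cancel (h.trans hkb'.symm))) (by simp at hn; tauto)
      · exact h
    · intro hy
      obtain ⟨v, hp⟩ : ∃ v, [a, b, y, v].Perm [a, b, c, d] := by
        simp only [List.mem_cons, List.not_mem_nil, or_false] at hy
        rcases hy with rfl | rfl
        · exact ⟨d, List.Perm.refl _⟩
        · exact ⟨c, ((List.Perm.swap _ _ _).cons b).cons a⟩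
      obtain ⟨g, hg, hgl⟩ := exists_conj_tetrad hD hprim ht hT
        (l' := [a, b, y, v]) (by rwa [List.toFinset_eq_of_perm _ _ hp]) hn (hp.nodup_iff.2 hn)
      simp only [List.map_cons, List.cons.injEq, MulAut.conj_apply] at hgl
      exact ⟨g, ⟨⟨hz.2 hg, Subgroup.mem_centralizer_singleton_iff.2 (mul_inv_eq_iff_eq_mul.1 hgl.1)⟩,
        Subgroup.mem_centralizer_singleton_iff.2 (mul_inv_eq_iff_eq_mul.1 hgl.2.1)⟩, hgl.2.2.1⟩
  have hlast : Kab ⊓ Subgroup.centralizer ({c} : Set G) = cent [a, b, c, d] := by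
    ext g
    simp only [hKab, hKa, hK, Subgroup.mem_inf, Subgroup.mem_centralizer_singleton_iff, mem_cent,
      List.forall_mem_cons, List.not_mem_nil, IsEmpty.forall_iff, implies_true, and_true]
    constructor
    · rintro ⟨⟨⟨kz, ka⟩, kb⟩, kc⟩
      refine ⟨ka, kb, kc, ?_⟩
      rw [hd a b c d hn hT]
      exact ((Commute.mul_right kc kb).mul_right ka).mul_right kz
    · rintro ⟨ka, kb, kc, kd⟩
      refine ⟨⟨⟨?_, ka⟩, kb⟩, kc⟩
      rw [← hT.prod]
      refine (commute_word fun x hx => ?_).eq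
      simp only [List.mem_toFinset, List.mem_cons, List.not_mem_nil, or_false] at hx
      rcases hx with rfl | rfl | rfl | rfl <;> assumption
  have hcount : {y : G | y ∈ D ∧ Commute z y}.ncard = 504 :=
    PrimeFree.ncard_fixed_four hD hprim ht ⟨[a, b, c, d], hn, rfl, fun x hx => hT.sub x (hmem x hx),
      fun x hx y hy => hT.comm x (hmem x hx) y (hmem y hy), by
        rw [← hT.prod, word_toFinset hn fun x hx y hy => hT.comm x (hmem x hx) y (hmem y hy)]⟩
  rw [o1, hcount, ← hKa] at h1
  rw [o2, Set.ncard_coe_finset, List.toFinset_card_of_nodup (List.nodup_cons.1 hn).2, ← hKab] at h2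
  rw [o3, Set.ncard_coe_finset, List.toFinset_card_of_nodup (List.nodup_cons.1 (List.nodup_cons.1 hn).2).2, hlast,
    natCard_cent_four hD hprim ht (fun x hx => hT.sub x (hmem x hx)) hn
      (fun x hx y hy => hT.comm x (hmem x hx) y (hmem y hy))] at h3
  simp only [List.length_cons, List.length_nil] at h2 h3
  omega

end CfsgLib.Fischer.FourProduct
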