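import Cfsg.Prelude.Def_Local
import Cfsg.Prelude.Def_Transfer
import Cfsg.Agent.Lib.PGroups.Frattini
import Cfsg.Agent.Lib.Cores.GenFitting
import Cfsg.Agent.Lib.Cores.Components
import Cfsg.Agent.Lib.Cores.Fitting

/-!
Two criteria: a 2-group that is abelian and of exponent two modulo its centre of order two is extraspecial; a normal
2-subgroup containing its centralizer and the 2-core is the generalized Fitting subgroup.
-/

set_option autoImplicit false
set_option linter.unusedSectionVars false
set_option linter.style.haveILetI false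

namespace CfsgLib.Fischer.FourProduct

open scoped commutatorElement

theorem isExtraspecial_of {P : Type*} [Group P] [Finite P] {z : P} (hP : IsPGroup 2 P) (hz : z ≠ 1)
    (hzc : ∀ x : P, Commute x z) (hc : ∀ w : P, (∀ x : P, Commute w x) → w = 1 ∨ w = z)
    (hconj : ∀ x y : P, x * y * x⁻¹ = y ∨ x * y * x⁻¹ = z * y) (hsq : ∀ x : P, x * x = 1 ∨ x * x = z)
    (hna : ∃ x y : P, ¬ Commute x y) : Cfsg.IsExtraspecial 2 P := by
  haveI : Fact (Nat.Prime 2) := ⟨Nat.prime_two⟩
  have hzm : z ∈ Subgroup.center P := Subgroup.mem_center_iff.2 fun x => (hzc x).eq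
  have hcomm : ∀ x y : P, ⁅x, y⁆ = 1 ∨ ⁅x, y⁆ = z := fun x y => by
    rw [commutatorElement_def]
    rcases hconj x y with h | h <;> rw [h]
    · left; group
    · right; group
  have hle : commutator P ≤ Subgroup.center P := by
    rw [commutator_def, Subgroup.commutator_le]
    intro x _ y _
    rcases hcomm x y with h | h <;> rw [h]
    exacts [one_mem _, hzm]
  have hcen : ∀ w ∈ Subgroup.center P, w = 1 ∨ w = z := fun w hw =>
    hc w fun x => (Subgroup.mem_center_iff.1 hw x).symm
  have hge : Subgroup.center P ≤ commutator P := by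
    intro w hw
    rcases hcen w hw with rfl | rfl
    · exact one_mem _
    · obtain ⟨x, y, hxy⟩ := hna
      rcases hcomm x y with h | h
      · exact absurd (commutatorElement_eq_one_iff_commute.1 h) hxy
      · rw [← h, commutator_def]
        exact Subgroup.commutator_mem_commutator (Subgroup.mem_top _) (Subgroup.mem_top _)
  have heq : commutator P = Subgroup.center P := le_antisymm hle hge
  refine ⟨⟨hP, le_antisymm (CfsgLib.PGroups.frattini_le_of (p := 2) hle fun x => ?_) ?_, heq⟩, ?_⟩
  · rw [pow_two]
    rcases hsq x with h | h <;> rw [h]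
    exacts [one_mem _, hzm]
  · rw [← heq]; exact CfsgLib.PGroups.commutator_le_frattini hP
  · have h2 : orderOf z = 2 := by
      refine orderOf_eq_prime ?_ hz
      rcases hsq z with h | h
      · rwa [pow_two]
      · exact absurd (by simpa using h) hz
    rw [show Subgroup.center P = Subgroup.zpowers z from le_antisymm (fun w hw => by
      rcases hcen w hw with rfl | rfl
      exacts [one_mem _, Subgroup.mem_zpowers _]) (Subgroup.zpowers_le.2 hzm), Nat.card_zpowers, h2]

theorem genFitting_eq {H : Type*} [Group H] [Finite H] {R : Subgroup H} [hR : R.Normal] (hp : IsPGroup 2 R)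
    (hc : Subgroup.centralizer (R : Set H) ≤ R) (hcore : Cfsg.pCore 2 H ≤ R) :
    Cfsg.generalizedFittingSubgroup H = R := by
  haveI : Fact (Nat.Prime 2) := ⟨Nat.prime_two⟩
  have hle : R ≤ Cfsg.generalizedFittingSubgroup H :=
    (CfsgLib.Cores.le_pCore hp).trans (CfsgLib.Cores.pCore_le_generalizedFittingSubgroup 2)
  refine le_antisymm (sup_le (CfsgLib.Cores.layer_le_iff.2 fun C hC => ?_) ?_) hle
  · haveI : Group.IsNilpotent R := hp.isNilpotent
    exact absurd ((CfsgLib.Cores.le_centralizer_of_not_le hC (Subgroup.Normal.isSubnormal hR)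
      (CfsgLib.Cores.not_le_of_isSolvable hC)).trans hc) (CfsgLib.Cores.not_le_of_isSolvable hC)
  · rw [CfsgLib.Cores.fittingSubgroup_eq_iSup_pCore]
    refine iSup_le fun p => ?_
    by_cases h2 : (p : ℕ) = 2
    · rw [h2]; exact hcore
    haveI : Fact (p : ℕ).Prime := ⟨Nat.prime_of_mem_primeFactors p.2⟩
    have hd : Disjoint (Cfsg.pCore (p : ℕ) H) R :=
      (CfsgLib.Cores.isPGroup_pCore (p : ℕ) H).disjoint_of_ne (p : ℕ) 2 h2 _ _ hp
    intro x hx
    refine hc (Subgroup.mem_centralizer_iff.2 fun r hr => ?_)
    exact (Subgroup.commute_of_normal_of_disjoint _ R inferInstance hR hd x r hx hr).symm.eq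

end CfsgLib.Fischer.FourProduct
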