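import Cfsg.Agent.Lib.Fischer.FourProduct.Tetrads
import Cfsg.Agent.Lib.Fischer.M24Seven.Normal

/-!
The six commuting members over the reflections in an orthonormal basis of the six space of minus type: their
product is a product of four commuting members and inverts exactly that six space.
-/

set_option autoImplicit false
set_option linter.unusedSectionVars false

namespace CfsgLib.Fischer.FourProduct

open CfsgLib.Fischer CfsgLib.InvChar.FischerProducts CfsgLib.Fischer.MaxCommuting
open CfsgLib.Fischer.M24Seven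
open scoped Classical

/-- Minus one on the six space and one on its complement. -/
def rho (x : V) : V := fun i => if i = 6 then x i else -x i

theorem rho_rho (x : V) : rho (rho x) = x := by
  funext i; by_cases h : i = 6 <;> simp [rho, h]

theorem rv_e (i : Fin 7) (hi : i ≠ 6) (x : V) : rv (e i) x = fun k => if k = i then -x k else x k := by
  funext k
  rw [rv_apply]
  have key : ∀ u : ZMod 3, u - 2 * u = -u := by decide
  have hb : M24Seven.b (e i) x = 2 * x i := by
    fin_cases i <;> first
      | exact absurd rfl hi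
      | simp [M24Seven.b, e]
  rw [hb]
  by_cases hk : k = i
  · subst hk; simp [e, key]
  · simp [e, hk, Pi.single_eq_of_ne hk]

variable {G : Type*} [Group G] {D : Set G} (M : Data G D)

theorem acts_unique {g : G} {σ τ : V → V} (hσ : Acts M.φ g σ) (hτ : Acts M.φ g τ) : σ = τ :=
  funext fun x => M.φ_inj ((hσ x).symm.trans (hτ x))

theorem iso_le : M.isoGroup ≤ Subgroup.normalizer (M.A : Set G) := by
  intro g ⟨σ, hσ, hb, _, _⟩
  refine Subgroup.mem_normalizer_iff.2 fun x => ?_
  constructor
  · rintro ⟨y, rfl⟩; exact ⟨σ y, (hσ y).symm⟩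
  · rintro ⟨y, hy⟩
    obtain ⟨w, rfl⟩ := hb.surjective y
    refine ⟨w, ?_⟩
    rw [← hσ w] at hy
    exact mul_left_cancel (mul_right_cancel hy)

theorem member_iso {s : G} (hs : s ∈ D) {v : V} (hv : q v = 1) (ha : Acts M.φ s (rv v)) : s ∈ M.isoGroup :=
  M.refGroup_iso (Subgroup.subset_closure ⟨hs, v, hv, ha⟩)

variable [Finite G] (hD : Cfsg.IsThreeTranspositionGroup D) (hprim : Cfsg.IsPrimitiveUnderConj D)
  (ht : Cfsg.IsOfTypeM24 G D) (hs : M.Swap)

include hD hprim ht hs

theorem ker_mem {g : G} (hg : g ∈ M.isoGroup) (h : Acts M.φ g id) : ∃ k, M.φ k = g := by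
  obtain ⟨f, hf, hker, -⟩ := M.exists_actHom hD hprim ht hs
  have h1 : f ⟨g, iso_le M hg⟩ = 1 := OrthGen.ext_act fun x => M.φ_inj (by
    rw [← hf ⟨g, iso_le M hg⟩ x, OrthGen.act_one]; exact h x)
  have h2 : (⟨g, iso_le M hg⟩ : ↥(Subgroup.normalizer (M.A : Set G))) ∈ f.ker := h1
  rw [hker, Subgroup.mem_subgroupOf] at h2
  exact h2

/-- Members over reflections in orthogonal vectors commute. -/
theorem commute_of_orth {s t : G} (hsD : s ∈ D) (htD : t ∈ D) {v w : V} (hv : q v = 1) (hw : q w = 1)
    (hsa : Acts M.φ s (rv v)) (hta : Acts M.φ t (rv w)) (hb : M24Seven.b v w = 0) : Commute s t := by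
  by_contra hc
  have h1 : Acts M.φ (s * t * s) ((rv v ∘ rv w) ∘ rv v) := M.acts_mul (M.acts_mul hsa hta) hsa
  have h2 : Acts M.φ (t * s * t) ((rv w ∘ rv v) ∘ rv w) := M.acts_mul (M.acts_mul hta hsa) hta
  rw [braid hD.1 hsD htD hc] at h1
  have h3 := congrFun (acts_unique M h1 h2) v
  simp only [Function.comp_apply] at h3
  have hwv : rv w v = v := rv_of_b_eq_zero (by rwa [b_comm])
  have hneg : ∀ u x : V, rv u (-x) = -rv u x := fun u x => by
    rw [← neg_one_smul (ZMod 3) x, M24Seven.rv_smul, neg_one_smul]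
  rw [rv_self hv, hneg, hwv, hneg, rv_self hv, neg_neg, hneg, hwv] at h3
  have h4 : v + v = 0 := by nth_rewrite 1 [h3]; exact neg_add_cancel v
  have key : ∀ u : ZMod 3, u + u = 0 → u = 0 := by decide
  have hv0 : v = 0 := funext fun i => key _ (congrFun h4 i)
  subst hv0
  exact absurd hv (by decide)

/-- The frame of six members and their product. -/
theorem exists_six : ∃ (z : G), (∃ T, IsTetrad D z T) ∧ z ∈ M.isoGroup ∧ Acts M.φ z rho := by
  have hmem : ∀ i : Fin 6, ∃ s ∈ D, Acts M.φ s (rv (e i.castSucc)) := fun i =>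
    M.mem hD hprim ht hs (v := e i.castSucc) (by fin_cases i <;> decide)
  choose s hsD hsa using hmem
  have hq : ∀ i : Fin 6, q (e i.castSucc) = 1 := by decide
  have hne6 : ∀ i : Fin 6, (i.castSucc : Fin 7) ≠ 6 := by decide
  have hb : ∀ i j : Fin 6, i ≠ j → M24Seven.b (e i.castSucc) (e j.castSucc) = 0 := by decide
  have hinj : Function.Injective s := by
    intro i j h
    by_contra hne
    have h1 := congrFun (acts_unique M (hsa i) (h ▸ hsa j)) (e i.castSucc)
    rw [rv_self (hq i), rv_of_b_eq_zero (by rw [b_comm]; exact hb i j hne)] at h1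
    have := congrFun h1 i.castSucc
    simp [e] at this
    exact absurd this (by decide)
  have hcomm : ∀ i j, Commute (s i) (s j) := fun i j => by
    by_cases h : i = j
    · rw [h]
    · exact commute_of_orth M hD hprim ht hs (hsD i) (hsD j) (hq i) (hq j) (hsa i) (hsa j) (hb i j h)
  have hcomp : ∀ x, rv (e (0 : Fin 6).castSucc) (rv (e (1 : Fin 6).castSucc) (rv (e (2 : Fin 6).castSucc)
      (rv (e (3 : Fin 6).castSucc) (rv (e (4 : Fin 6).castSucc) (rv (e (5 : Fin 6).castSucc) x))))) = rho x := by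
    intro x
    funext k
    simp only [rv_e _ (hne6 _), rho]
    fin_cases k <;> simp
  set z := s 0 * (s 1 * (s 2 * (s 3 * (s 4 * s 5)))) with hz
  have hza : Acts M.φ z rho := by
    have h := M.acts_mul (hsa 0) (M.acts_mul (hsa 1) (M.acts_mul (hsa 2) (M.acts_mul (hsa 3)
      (M.acts_mul (hsa 4) (hsa 5)))))
    rw [← show _ = rho from funext hcomp]
    exact h
  have hzi : z ∈ M.isoGroup := mul_mem (member_iso M (hsD 0) (hq 0) (hsa 0)) (mul_mem (member_iso M (hsD 1) (hq 1) (hsa 1))
    (mul_mem (member_iso M (hsD 2) (hq 2) (hsa 2)) (mul_mem (member_iso M (hsD 3) (hq 3) (hsa 3))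
      (mul_mem (member_iso M (hsD 4) (hq 4) (hsa 4)) (member_iso M (hsD 5) (hq 5) (hsa 5))))))
  refine ⟨z, ?_, hzi, hza⟩
  let six : Finset G := Finset.univ.image s
  have hsix : six.card = 6 := by simp [six, Finset.card_image_of_injective _ hinj]
  have hsixD : ∀ a ∈ six, a ∈ D := fun a ha => by obtain ⟨i, -, rfl⟩ := Finset.mem_image.1 ha; exact hsD i
  have hsixc : ∀ a ∈ six, ∀ b ∈ six, Commute a b := fun a ha b hb => by
    obtain ⟨i, -, rfl⟩ := Finset.mem_image.1 ha
    obtain ⟨j, -, rfl⟩ := Finset.mem_image.1 hb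
    exact hcomm i j
  have hword : word six = z := by
    have hl : [s 0, s 1, s 2, s 3, s 4, s 5] = ([0, 1, 2, 3, 4, 5] : List (Fin 6)).map s := rfl
    have : six = [s 0, s 1, s 2, s 3, s 4, s 5].toFinset := by
      rw [hl]; ext a; simp only [six, Finset.mem_image, List.mem_toFinset, List.mem_map]
      exact ⟨fun ⟨i, _, h⟩ => ⟨i, by fin_cases i <;> simp, h⟩, fun ⟨i, _, h⟩ => ⟨i, Finset.mem_univ _, h⟩⟩
    rw [this, word_toFinset (by rw [hl]; exact List.Nodup.map hinj (by decide)) ?_]
    · simp [hz]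
    · rw [hl]
      intro a ha b hb
      obtain ⟨i, -, rfl⟩ := List.mem_map.1 ha
      obtain ⟨j, -, rfl⟩ := List.mem_map.1 hb
      exact hcomm i j
  obtain ⟨L, hL, hsixL⟩ := exists_max hD hprim ht six hsixD hsixc
  obtain ⟨B, hB, hB4, hpar, hBw⟩ := exists_reduced hD hprim ht hL _ hsix hsixL
  rw [hword] at hBw
  rw [hsix] at hpar
  have hcases : B.card = 0 ∨ B.card = 2 ∨ B.card = 4 := by omega
  rcases hcases with h0 | h2 | h4
  · exfalso
    rw [Finset.card_eq_zero.1 h0, word_empty] at hBw
    have h1 := congrFun (acts_unique M (hBw ▸ hza) (fun x => by rw [one_mul, inv_one, mul_one]; rfl : Acts M.φ 1 id)) (e 0)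
    exact absurd h1 (by decide)
  · exfalso
    have hsd := card_sd six B
    have hw1 : word (sd six B) = 1 := by
      rw [word_sd hD hprim ht hL hsixL hB, hword, hBw, ← hword, word_sq hD hprim ht hL hsixL]
    have hne : (sd six B).Nonempty := Finset.nonempty_iff_ne_empty.2 fun k => by
      have := eq_of_sd_eq_empty k
      rw [← this, hsix] at h2; omega
    have hge : 8 ≤ (sd six B).card := by
      by_contra k
      exact word_ne_one hD hprim ht hL (sd_subset hsixL hB) hne (by omega) hw1
    have hdisj : Disjoint six B := Finset.disjoint_iff_inter_eq_empty.2 (Finset.card_eq_zero.1 (by omega))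
    let x := M.φ (e 0)
    let r := insert (s 0) B
    have hs0 : s 0 ∈ six := Finset.mem_image.2 ⟨0, Finset.mem_univ _, rfl⟩
    have hs0B : s 0 ∉ B := Finset.disjoint_left.1 hdisj hs0
    have hrL : r ⊆ L := Finset.insert_subset (hsixL hs0) hB
    have hr3 : r.card = 3 := by rw [Finset.card_insert_of_notMem hs0B, h2]
    have hfive : six.erase (s 0) ⊆ L := (Finset.erase_subset _ _).trans hsixL
    have hxfive : ∀ a ∈ six.erase (s 0), Commute x a := by
      intro a ha
      obtain ⟨hne, ha'⟩ := Finset.mem_erase.1 ha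
      obtain ⟨i, -, rfl⟩ := Finset.mem_image.1 ha'
      have hi : i ≠ 0 := fun k => hne (by rw [k])
      exact (M.commute_of_fix (hsa i) (rv_of_b_eq_zero (hb i 0 hi))).symm
    have hwr : word r = word (six.erase (s 0)) := by
      have e1 : word r = s 0 * word B := by
        rw [show r = {s 0} ∪ B from Finset.insert_eq _ _, word_union hD hprim ht hL
          (Finset.singleton_subset_iff.2 (hsixL hs0)) hB (Finset.disjoint_singleton_left.2 hs0B), word_singleton]
      have e2 : word six = s 0 * word (six.erase (s 0)) := by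
        conv_lhs => rw [show six = {s 0} ∪ six.erase (s 0) by rw [← Finset.insert_eq, Finset.insert_erase hs0]]
        rw [word_union hD hprim ht hL (Finset.singleton_subset_iff.2 (hsixL hs0)) hfive
          (Finset.disjoint_singleton_left.2 (Finset.notMem_erase _ _)), word_singleton]
      rw [e1, hBw, ← hword, e2, ← mul_assoc, sq_eq_one hD.1 (hsD 0), one_mul]
    have hfixw : x * word r * x⁻¹ = word r := by
      rw [hwr, (commute_word hxfive).eq, mul_inv_cancel_right]
    have hrcomm : ∀ a ∈ r, ∀ b ∈ r, Commute a b := fun a ha b hb => hL.comm a (hrL ha) b (hrL hb)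
    let r' := r.image (MulAut.conj x)
    have hr'D : ∀ a ∈ r', a ∈ D := fun a ha => by
      obtain ⟨b, hb, rfl⟩ := Finset.mem_image.1 ha
      exact hD.2.1 x b (hL.subset (hrL hb))
    have hr'c : ∀ a ∈ r', ∀ b ∈ r', Commute a b := fun a ha b hb => by
      obtain ⟨a, ha', rfl⟩ := Finset.mem_image.1 ha
      obtain ⟨b, hb', rfl⟩ := Finset.mem_image.1 hb
      exact (hrcomm a ha' b hb').map _
    have hr'w : word r' = word r := by rw [word_map _ hrcomm, MulAut.conj_apply, hfixw]
    have hcross : ∀ a ∈ r', ∀ b ∈ r, Commute a b := fun a ha b hb =>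
      commute_short hD hprim ht hL hrL hr3.le (hr'D a ha) (hr'w ▸ commute_word (hr'c a ha)) b hb
    obtain ⟨L', hL', hsub⟩ := exists_max hD hprim ht (r ∪ r')
      (fun a ha => (Finset.mem_union.1 ha).elim (fun h => hL.subset (hrL h)) (hr'D a))
      (fun a ha b hb => by
        rcases Finset.mem_union.1 ha with ha | ha <;> rcases Finset.mem_union.1 hb with hb | hb
        exacts [hrcomm a ha b hb, (hcross b hb a ha).symm, hcross a ha b hb, hr'c a ha b hb])
    have h1 : r ⊆ L' := Finset.union_subset_left hsub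
    have h1' : r' ⊆ L' := Finset.union_subset_right hsub
    have hr'3 : r'.card = 3 := by rw [Finset.card_image_of_injective _ (MulAut.conj x).injective, hr3]
    have hrr : r' = r := eq_of_sd_eq_empty (by
      by_contra hne'
      have hc := card_sd r' r
      exact word_ne_one hD hprim ht hL' (sd_subset h1' h1) (Finset.nonempty_iff_ne_empty.2 hne') (by omega)
        (by rw [word_sd hD hprim ht hL' h1' h1, hr'w, word_sq hD hprim ht hL' h1]))
    have hclosed : ∀ a ∈ r, x * a * x⁻¹ ∈ r := fun a ha => hrr ▸ Finset.mem_image_of_mem (MulAut.conj x) ha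
    have hxa : ∀ {g : G}, Acts M.φ g (rv (e 0)) → Acts M.φ (x * g * x⁻¹) (rv (e 0)) := fun {g} hg y => by
      have hxfix : ∀ w, x * M.φ w * x⁻¹ = M.φ w := fun w => M.acts_φ (e 0) w
      have hxfix' : ∀ w, x⁻¹ * M.φ w * x = M.φ w := fun w => by
        conv_lhs => rw [← hxfix w]
        group
      rw [show x * g * x⁻¹ * M.φ y * (x * g * x⁻¹)⁻¹ = x * (g * (x⁻¹ * M.φ y * x) * g⁻¹) * x⁻¹ by group,
        hxfix', hg, hxfix]
    have hx0 : Acts M.φ (s 0) (rv (e 0)) := hsa 0
    have hmove : ∀ k : V, M.φ k * s 0 * (M.φ k)⁻¹ = s 0 → M24Seven.b (e 0) k = 0 := by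
      intro k hk
      have h3 : Commute (M.φ k) (s 0) := mul_inv_eq_iff_eq_mul.1 hk
      have h4 : rv (e 0) k = k := M.φ_inj (by rw [← hx0 k, h3.symm.eq, mul_inv_cancel_right])
      have h5 := congrFun h4 0
      rw [rv_apply] at h5
      have key : ∀ u w : ZMod 3, u - w = u → w = 0 := by decide
      simpa [e] using key _ _ h5
    have hne1 : x * s 0 * x⁻¹ ≠ s 0 := fun k => absurd (hmove (e 0) k) (by decide)
    have hx2 : x * x = M.φ (e 0 + e 0) := (M.φ_add _ _).symm
    have hne2 : x * (x * s 0 * x⁻¹) * x⁻¹ ≠ s 0 := fun k => by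
      rw [show x * (x * s 0 * x⁻¹) * x⁻¹ = x * x * s 0 * (x * x)⁻¹ by group, hx2] at k
      exact absurd (hmove _ k) (by decide)
    have hne3 : x * (x * s 0 * x⁻¹) * x⁻¹ ≠ x * s 0 * x⁻¹ :=
      fun k => hne1 (mul_left_cancel (mul_right_cancel k))
    have hs0r : s 0 ∈ r := Finset.mem_insert_self _ _
    have hall : r = {s 0, x * s 0 * x⁻¹, x * (x * s 0 * x⁻¹) * x⁻¹} := by
      refine (Finset.eq_of_subset_of_card_le (fun a ha => ?_) ?_).symm
      · simp only [Finset.mem_insert, Finset.mem_singleton] at ha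
        rcases ha with rfl | rfl | rfl
        exacts [hs0r, hclosed _ hs0r, hclosed _ (hclosed _ hs0r)]
      · rw [hr3, Finset.card_eq_three.2 ⟨_, _, _, hne1.symm, hne2.symm, hne3.symm, rfl⟩]
    have hBact : ∀ a ∈ B, Acts M.φ a (rv (e 0)) := fun a ha => by
      have := hall.le (show a ∈ r from Finset.mem_insert_of_mem ha)
      simp only [Finset.mem_insert, Finset.mem_singleton] at this
      rcases this with rfl | rfl | rfl
      exacts [hx0, hxa hx0, hxa (hxa hx0)]
    obtain ⟨u, w, huw, hBeq⟩ := Finset.card_eq_two.1 h2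
    have hu : u ∈ B := hBeq ▸ Finset.mem_insert_self _ _
    have hw : w ∈ B := hBeq ▸ Finset.mem_insert_of_mem (Finset.mem_singleton_self _)
    have hz2 : z = u * w := by
      rw [← hBw, hBeq, show ({u, w} : Finset G) = [u, w].toFinset by simp, word_toFinset (by simp [huw])
        (by simp [hL.comm u (hB hu) w (hB hw), hL.comm w (hB hw) u (hB hu)])]
      simp
    have h3 := congrFun (acts_unique M (hz2 ▸ hza) (M.acts_mul (hBact u hu) (hBact w hw))) (e 1)
    rw [Function.comp_apply, rv_of_b_eq_zero (show M24Seven.b (e 0) (e 1) = 0 by decide),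
      rv_of_b_eq_zero (show M24Seven.b (e 0) (e 1) = 0 by decide)] at h3
    exact absurd h3 (by decide)
  · exact ⟨B, h4, fun a ha => hL.subset (hB ha), fun a ha b hb => hL.comm a (hB ha) b (hB hb), hBw⟩

end CfsgLib.Fischer.FourProduct
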