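import Cfsg.Agent.Lib.Fischer.FourProduct.Lines
import Cfsg.Agent.Lib.Fischer.FourProduct.Six
import Cfsg.Agent.Lib.SchurMult.U43.Model

/-!
Groups of type M(24): the part of the normalizer of the seven space inside the centralizer of a product of four
commuting members, with its action on the six space of minus type.
-/

set_option autoImplicit false
set_option linter.unusedSectionVars false
set_option linter.style.haveILetI false

namespace CfsgLib.Fischer.FourProduct

open CfsgLib.Fischer CfsgLib.InvChar.FischerProducts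
open CfsgLib.Fischer.M24Seven CfsgLib.SchurMult
open CfsgLib.ClassicalForms (orth refl refl_apply refl_congr conj_refl refl_inv orth_ext orth_apply orth_mul_apply
  orth_one_apply)
open scoped Classical commutatorElement

universe u

/-- A piece of the centralizer of `z` acting as the reflection group of the six space. -/
structure Frame {G : Type u} [Group G] (D : Set G) (z : G) where
  four : ∃ T, IsTetrad D z T
  y : G
  P : Subgroup G
  f : ↥P →* U43.O6
  m : G
  y_ne : y ≠ 1
  y_cube : y ^ 3 = 1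
  P_le : ∀ g ∈ P, Commute g z ∧ Commute g y
  y_mem : y ∈ P
  z_mem : z ∈ P
  f_y : f ⟨y, y_mem⟩ = 1
  f_z : f ⟨z, z_mem⟩ = U43.minus.1
  ker : ∀ g : P, f g = 1 → (g : G) ∈ Subgroup.zpowers y
  omega : U43.Om6 ≤ f.range
  member : ∃ s : P, (s : G) ∈ D
  m_z : Commute m z
  m_y : m * y * m⁻¹ = y⁻¹
  scalar : ∀ g : P, (∀ T, IsTetrad D z T → ∀ a ∈ T, (g : G) * a * (g : G)⁻¹ ∈ T) → f g = 1 ∨ f g = U43.minus.1

/-- The six space in the seven space. -/
def up (x : U43.V6) : V := fun i => if h : i.val < 6 then x ⟨i.val, h⟩ else 0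

/-- The projection to the six space. -/
def dn (v : V) : U43.V6 := fun i => v i.castSucc

theorem dn_up (x : U43.V6) : dn (up x) = x := funext fun i => by simp [dn, up]

theorem up_six (x : U43.V6) : up x 6 = 0 := by simp [up]

theorem up_dn {v : V} (h : v 6 = 0) : up (dn v) = v := funext fun i => by
  by_cases hi : i.val < 6
  · simp [up, dn, hi]
  · have h6 : i = 6 := Fin.ext (by have := i.isLt; show i.val = 6; omega)
    subst h6
    simp [up, h]

theorem up_add (x y : U43.V6) : up (x + y) = up x + up y := funext fun i => by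
  by_cases hi : i.val < 6 <;> simp [up, hi]

theorem up_smul (t : ZMod 3) (x : U43.V6) : up (t • x) = t • up x := funext fun i => by
  by_cases hi : i.val < 6 <;> simp [up, hi]

theorem q_up (x : U43.V6) : q (up x) = U43.dt x x := by
  simp [q, up, U43.dt, Fin.sum_univ_six]

theorem b_up (x y : U43.V6) : M24Seven.b (up x) (up y) = 2 * U43.dt x y := by
  simp [M24Seven.b, up, U43.dt, Fin.sum_univ_six]

theorem b_six (x : V) : M24Seven.b x (e 6) = x 6 := by
  have key : ∀ u : ZMod 3, 2 * (2 * u) = u := by decide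
  simp [M24Seven.b, e, key]

theorem smul_sub_neg (u : ZMod 3) : -(2 * u) = u := by revert u; decide

theorem coord_line : ∀ i j : Fin 6, i ≠ j → ∃ k l : Fin 6, k ≠ i ∧ k ≠ j ∧ l ≠ i ∧ l ≠ j ∧ k ≠ l ∧
    U43.dt (U43.ev i + U43.ev j + U43.ev k + U43.ev l) (U43.ev i + U43.ev j + U43.ev k + U43.ev l) = 1 := by
  decide +kernel

/-- Commuting reflections belong to orthogonal or equal lines. -/
theorem line_of_commute {v w : V} (hv : q v = 1) (h : rv v (rv w v) = rv w (rv v v)) :
    M24Seven.b v w = 0 ∨ w = v ∨ w = -v := by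
  rw [rv_self hv] at h
  generalize hβ : M24Seven.b v w = β
  have key : ∀ i, v i - β * w i - (2 - β * β) * v i = -v i + β * w i := fun i => by
    have hi := congrFun h i
    have e1 : M24Seven.b v (rv w v) = 2 - β * β := by
      rw [rv, b_comm w v, hβ, sub_eq_add_neg, b_add_right, b_neg_right, b_smul_right, b_self, hv, mul_one, hβ,
        ← sub_eq_add_neg]
    rw [rv_apply, e1, rv_apply, rv_apply, b_neg_right, b_comm w v, hβ, Pi.neg_apply] at hi
    rw [hi]; ring
  rcases (show ∀ t : ZMod 3, t = 0 ∨ t = 1 ∨ t = 2 by decide) β with rfl | rfl | rfl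
  · exact Or.inl rfl
  · exact Or.inr (Or.inr (funext fun i => (show ∀ a c : ZMod 3, a - 1 * c - (2 - 1 * 1) * a = -a + 1 * c → c = -a
      by decide) _ _ (key i)))
  · exact Or.inr (Or.inl (funext fun i => (show ∀ a c : ZMod 3, a - 2 * c - (2 - 2 * 2) * a = -a + 2 * c → c = a
      by decide) _ _ (key i)))

variable {G : Type u} [Group G] [Finite G] {D : Set G} (M : Data G D)
variable (hD : Cfsg.IsThreeTranspositionGroup D) (hprim : Cfsg.IsPrimitiveUnderConj D)
  (ht : Cfsg.IsOfTypeM24 G D) (hs : M.Swap)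

include hD hprim ht hs

/-- Members over one reflection centralizing `z` are equal. -/
theorem member_unique {z : G} (hzi : z ∈ M.isoGroup) (hza : Acts M.φ z rho) {s t : G} (hsD : s ∈ D) (htD : t ∈ D)
    (hsz : Commute s z) (htz : Commute t z) {v : V} (hv : q v = 1) (hv6 : v 6 = 0) (hsa : Acts M.φ s (rv v))
    (hta : Acts M.φ t (rv v)) : s = t := by
  have h1 : Acts M.φ (s * t) id := fun x => by
    rw [M.acts_mul hsa hta x]
    exact congrArg M.φ (rv_rv hv x)
  obtain ⟨k, hk⟩ := ker_mem M hD hprim ht hs (mul_mem (member_iso M hsD hv hsa) (member_iso M htD hv hta)) h1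
  have hkz : Commute (M.φ k) z := hk ▸ hsz.mul_left htz
  have hk6 : rho k = k := M.φ_inj (by rw [← hza k, hkz.symm.eq, mul_inv_cancel_right])
  have hneg : rv v k = -k := M.φ_inj (by
    rw [← hsa k, M.φ_neg, hk, mul_inv_rev, inv_eq hD.1 hsD, inv_eq hD.1 htD,
      show s * (s * t) * s = s * s * (t * s) by group, sq_eq_one hD.1 hsD, one_mul])
  have hk0 : ∀ i : Fin 7, i ≠ 6 → k i = 0 := fun i hi => by
    have h := congrFun hk6 i
    simp only [rho, if_neg hi] at h
    exact (show ∀ a : ZMod 3, -a = a → a = 0 by decide) _ h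
  have hb : M24Seven.b v k = 0 := by
    simp [M24Seven.b, hk0 0 (by decide), hk0 1 (by decide), hk0 2 (by decide), hk0 3 (by decide), hk0 4 (by decide),
      hk0 5 (by decide), hv6]
  rw [rv_of_b_eq_zero hb] at hneg
  have : k = 0 := funext fun i => (show ∀ a : ZMod 3, a = -a → a = 0 by decide) _ (congrFun hneg i)
  rw [this, M.φ_zero] at hk
  rw [eq_inv_of_mul_eq_one_left hk.symm, inv_eq hD.1 htD]

/-- A member over each reflection of the six space centralizing `z`. -/
theorem exists_member {z : G} (hzi : z ∈ M.isoGroup) (hza : Acts M.φ z rho) (hzz : z * z = 1) {v : V} (hv : q v = 1)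
    (hv6 : v 6 = 0) : ∃ s ∈ D, Commute s z ∧ Acts M.φ s (rv v) := by
  obtain ⟨s, hsD, hsa⟩ := M.mem hD hprim ht hs hv
  have hss := sq_eq_one hD.1 hsD
  have hzi' : z⁻¹ = z := inv_eq_of_mul_eq_one_right hzz
  have hsi := member_iso M hsD hv hsa
  have hcomm : ∀ x, rho (rv v (rho x)) = rv v x := fun x => by
    funext i
    have hb : M24Seven.b v (rho x) = -M24Seven.b v x := by
      simp [M24Seven.b, rho, hv6]; ring
    have hkey : rho (rv v (rho x)) i = if i = 6 then rv v (rho x) i else -(rv v (rho x) i) := rfl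
    rw [hkey, rv_apply, rv_apply, hb]
    by_cases hi : i = 6
    · subst hi; simp [rho, hv6]
    · simp [rho, hi]; ring
  have h1 : Acts M.φ (z * s * z * s) id := fun x => by
    rw [M.acts_mul (M.acts_mul (M.acts_mul hza hsa) hza) hsa x]
    exact congrArg M.φ ((hcomm _).trans (rv_rv hv x))
  obtain ⟨k, hk⟩ := ker_mem M hD hprim ht hs (mul_mem (mul_mem (mul_mem hzi hsi) hzi) hsi) h1
  have hzsz : z * s * z = M.φ k * s := by rw [hk, mul_assoc (z * s * z), hss, mul_one]
  have hsk : s * M.φ k * s = (M.φ k)⁻¹ := by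
    rw [hk, mul_inv_rev, mul_inv_rev, mul_inv_rev, inv_eq hD.1 hsD, hzi']
    calc s * (z * s * z * s) * s = s * (z * s * z) * (s * s) := by group
      _ = s * (z * (s * z)) := by rw [hss]; group
  have hks : M.φ k * s = s * (M.φ k)⁻¹ := by
    rw [← hsk, show s * (s * M.φ k * s) = s * s * (M.φ k * s) by group, hss, one_mul]
  have hzk : z * M.φ k * z = (M.φ k)⁻¹ := by
    rw [hk, mul_inv_rev, mul_inv_rev, mul_inv_rev, inv_eq hD.1 hsD, hzi']
    calc z * (z * s * z * s) * z = z * z * (s * (z * (s * z))) := by group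
      _ = _ := by rw [hzz, one_mul]
  refine ⟨M.φ k * s * (M.φ k)⁻¹, hD.2.1 _ s hsD, ?_, ?_⟩
  · refine (mul_inv_eq_iff_eq_mul.1 (show z * (M.φ k * s * (M.φ k)⁻¹) * z⁻¹ = M.φ k * s * (M.φ k)⁻¹ from ?_)).symm
    rw [hzi', show z * (M.φ k * s * (M.φ k)⁻¹) * z = (z * M.φ k * z) * (z * z)⁻¹ * (z * s * z) * (z * z)⁻¹ *
      (z * (M.φ k)⁻¹ * z) by group, hzz, hzsz, hzk]
    have hzk' : z * (M.φ k)⁻¹ * z = M.φ k := by
      have := congrArg (fun g => g⁻¹) hzk
      simp only [mul_inv_rev, inv_inv, hzi', ← mul_assoc] at this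
      exact this
    rw [hzk', inv_one, mul_one, mul_one, inv_mul_cancel_left]
    -- both sides are `s * φ k`
    have h3 : M.φ k ^ 3 = 1 := by
      rw [← M.φ_nsmul, ← Nat.cast_smul_eq_nsmul (ZMod 3), show ((3 : ℕ) : ZMod 3) = 0 from rfl, zero_smul, M.φ_zero]
    rw [hks, mul_assoc s, show (M.φ k)⁻¹ * (M.φ k)⁻¹ = M.φ k from
      mul_left_cancel (a := M.φ k) (mul_left_cancel (a := M.φ k) (by
        rw [show M.φ k * (M.φ k * ((M.φ k)⁻¹ * (M.φ k)⁻¹)) = 1 by group, ← h3, pow_three]))]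
  · intro x
    have hfix : ∀ w, (M.φ k)⁻¹ * M.φ w * M.φ k = M.φ w := fun w => by
      rw [mul_assoc, (M.φ_comm w k).eq, inv_mul_cancel_left]
    rw [show M.φ k * s * (M.φ k)⁻¹ * M.φ x * (M.φ k * s * (M.φ k)⁻¹)⁻¹ =
      M.φ k * (s * ((M.φ k)⁻¹ * M.φ x * M.φ k) * s⁻¹) * (M.φ k)⁻¹ by group, hfix, hsa, M.acts_φ k]
    rfl

/-- **The frame.** -/
theorem exists_frame : ∃ z, Nonempty (Frame D z) := by
  obtain ⟨z, ⟨T₀, hT₀⟩, hzi, hza⟩ := exists_six M hD hprim ht hs
  have hzz := z_sq hD hprim ht hT₀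
  have hzi' := z_inv hD hprim ht hT₀
  refine ⟨z, ?_⟩
  set y := M.φ (e 6) with hy
  let P : Subgroup G := Subgroup.centralizer ({z} : Set G) ⊓ Subgroup.centralizer ({y} : Set G) ⊓ M.isoGroup
  have hP : ∀ {g : G}, g ∈ P ↔ (Commute g z ∧ Commute g y) ∧ g ∈ M.isoGroup := by
    intro g
    simp only [P, Subgroup.mem_inf, Subgroup.mem_centralizer_singleton_iff]
    exact Iff.rfl
  have hiso : ∀ g : P, ∃ σ : V → V, Acts M.φ (g : G) σ ∧ Function.Bijective σ ∧ (∀ x, q (σ x) = q x) ∧
      ∀ x y, σ (x + y) = σ x + σ y := fun g => (hP.1 g.2).2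
  choose σ hσ hσb hσq hσa using hiso
  have hσ6 : ∀ g : P, σ g (e 6) = e 6 := fun g => M.φ_inj (by
    rw [← hσ g, (hP.1 g.2).1.2.eq, mul_inv_cancel_right])
  have hσW : ∀ (g : P) x, σ g x 6 = x 6 := fun g x => by
    rw [← b_six (σ g x), ← b_six x]
    conv_lhs => rw [← hσ6 g]
    exact Data.iso_b (hσq g) (hσa g) x (e 6)
  have hσs : ∀ (g : P) (t : ZMod 3) x, σ g (t • x) = t • σ g x := fun g t x =>
    map_smul (AddMonoidHom.toZModLinearMap 3 (AddMonoidHom.mk' (σ g) (hσa g))) t x
  have hσmul : ∀ (g h : P) x, σ (g * h) x = σ g (σ h x) := fun g h x =>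
    congrFun (acts_unique M (hσ (g * h)) (M.acts_mul (hσ g) (hσ h))) x
  have hσone : ∀ x, σ 1 x = x := fun x =>
    congrFun (acts_unique M (hσ 1) (τ := id) (fun x => by simp)) x
  have hσinv : ∀ (g : P) x, σ g⁻¹ (σ g x) = x := fun g x => by rw [← hσmul, inv_mul_cancel, hσone]
  have hσinv' : ∀ (g : P) x, σ g (σ g⁻¹ x) = x := fun g x => by rw [← hσmul, mul_inv_cancel, hσone]
  have hup : ∀ (g : P) x, up (dn (σ g (up x))) = σ g (up x) := fun g x => up_dn (by rw [hσW, up_six])
  let lin : P → U43.O6 := fun g =>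
    ⟨{ toFun := fun x => dn (σ g (up x))
       invFun := fun x => dn (σ g⁻¹ (up x))
       left_inv := fun x => by simp only [hup, hσinv, dn_up]
       right_inv := fun x => by simp only [hup, hσinv', dn_up]
       map_add' := fun x y => by rw [up_add, hσa]; rfl
       map_smul' := fun t x => by rw [up_smul, hσs]; rfl },
      fun x => by
        show U43.Q6 (dn (σ g (up x))) = U43.Q6 x
        rw [U43.Q6_apply, U43.Q6_apply, ← q_up, ← q_up, hup, hσq]⟩
  have hlin : ∀ g x, (lin g : U43.V6 ≃ₗ[U43.K] U43.V6) x = dn (σ g (up x)) := fun _ _ => rfl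
  let f : P →* U43.O6 := MonoidHom.mk' lin fun g h => orth_ext fun x => by
    rw [orth_mul_apply, hlin, hlin, hlin, hup, hσmul]
  have hf : ∀ g x, (f g : U43.V6 ≃ₗ[U43.K] U43.V6) x = dn (σ g (up x)) := fun _ _ => rfl
  -- members over the reflections
  have hmemb : ∀ a : U43.V6, U43.dt a a = 1 → ∃ g : P, (g : G) ∈ D ∧ Acts M.φ (g : G) (rv (up a)) ∧
      ∀ ha : U43.Q6 a ≠ 0, f g = refl U43.Q6 a ha := by
    intro a ha
    have hv : q (up a) = 1 := (q_up a).trans ha
    obtain ⟨s, hsD, hsz, hsa⟩ := exists_member M hD hprim ht hs hzi hza hzz hv (up_six a)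
    have hsy : Commute s y := M.commute_of_fix hsa (rv_of_b_eq_zero (by rw [b_six, up_six]))
    refine ⟨⟨s, hP.2 ⟨⟨hsz, hsy⟩, member_iso M hsD hv hsa⟩⟩, hsD, hsa, fun ha' => orth_ext fun x => ?_⟩
    rw [hf, congrFun (acts_unique M (hσ ⟨s, _⟩) hsa) (up x), U43.refl_one ha' ha]
    funext i
    show rv (up a) (up x) i.castSucc = x i + U43.dt x a * a i
    rw [rv_apply, b_up, sub_eq_add_neg, ← neg_mul, smul_sub_neg]
    rw [show U43.dt a x = U43.dt x a from Finset.sum_congr rfl fun j _ => mul_comm _ _]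
    simp [up]
  have hev : ∀ i, U43.dt (U43.ev i) (U43.ev i) = 1 := U43.ev_one
  have hQ : ∀ {a : U43.V6}, U43.dt a a = 1 → U43.Q6 a ≠ 0 := fun {a} h => by rw [U43.Q6_apply, h]; decide
  have hzy : Commute z y := M.commute_of_fix hza (by funext i; by_cases h : i = 6 <;> simp [rho, e, h])
  have hymem : y ∈ P := hP.2 ⟨⟨hzy.symm, Commute.refl y⟩,
    ⟨id, M.acts_φ (e 6), Function.bijective_id, fun _ => rfl, fun _ _ => rfl⟩⟩
  have hzmem : z ∈ P := hP.2 ⟨⟨Commute.refl z, hzy⟩, hzi⟩
  -- the range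
  have homega : U43.Om6 ≤ f.range := by
    let S : Subgroup U43.O6 := Subgroup.closure
      {g | ∃ (a : U43.V6) (ha : U43.Q6 a ≠ 0), U43.dt a a = 1 ∧ g = refl U43.Q6 a ha}
    have hSr : S ≤ f.range := by
      rw [Subgroup.closure_le]
      rintro g ⟨a, ha, h1, rfl⟩
      obtain ⟨x, -, -, hx⟩ := hmemb a h1
      exact ⟨x, hx ha⟩
    haveI hSn : S.Normal := by
      refine ⟨fun n hn g => ?_⟩
      induction hn using Subgroup.closure_induction with
      | mem x hx =>
        obtain ⟨a, ha, h1, rfl⟩ := hx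
        rw [conj_refl]
        refine Subgroup.subset_closure ⟨_, _, ?_, rfl⟩
        rw [← U43.Q6_apply, orth_apply, U43.Q6_apply, h1]
      | one => rw [mul_one, mul_inv_cancel]; exact one_mem _
      | mul x y _ _ hx hy => rw [show g * (x * y) * g⁻¹ = g * x * g⁻¹ * (g * y * g⁻¹) by group]; exact mul_mem hx hy
      | inv x _ hx => rw [show g * x⁻¹ * g⁻¹ = (g * x * g⁻¹)⁻¹ by group]; exact inv_mem hx
    have hs01 : (U43.sgn 0 1).1 ∈ S := by
      have e : (U43.sgn 0 1).1 = refl U43.Q6 (U43.ev 0) (hQ (hev 0)) * refl U43.Q6 (U43.ev 1) (hQ (hev 1)) :=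
        U43.orth_ext_ev fun k => funext fun l => by
          show (U43.mono (U43.sp 0 1) 1 : U43.V6 ≃ₗ[U43.K] U43.V6) (U43.ev k) l = _
          rw [U43.mono_apply, U43.sp_split 0 1 k (by decide) l, orth_mul_apply, U43.refl_one _ (hev 0),
            U43.refl_one _ (hev 1)]
      rw [e]
      exact mul_mem (Subgroup.subset_closure ⟨_, _, hev 0, rfl⟩) (Subgroup.subset_closure ⟨_, _, hev 1, rfl⟩)
    haveI := U43.isSimpleGroup_G0
    haveI : (S.subgroupOf U43.Om6).Normal := hSn.subgroupOf U43.Om6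
    have htop : (S.subgroupOf U43.Om6).map U43.qm = ⊤ := by
      refine ((Subgroup.Normal.map inferInstance _ (QuotientGroup.mk'_surjective _) :
        ((S.subgroupOf U43.Om6).map U43.qm).Normal).eq_bot_or_eq_top).resolve_left fun h => ?_
      have h1 : U43.qm (U43.sgn 0 1) = 1 := by
        rw [← Subgroup.mem_bot, ← h]
        exact Subgroup.mem_map_of_mem _ hs01
      rcases U43.qm_eq_one.1 h1 with h2 | h2 <;>
        have h3 := congrArg (fun g : U43.Om6 => ((g.1 : U43.V6 ≃ₗ[U43.K] U43.V6) (U43.ev 2)) 2) h2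
      · have h4 := congrArg (fun g : U43.Om6 => ((g.1 : U43.V6 ≃ₗ[U43.K] U43.V6) (U43.ev 0)) 0) h2
        simp only [U43.sgn_apply] at h4
        exact absurd h4 (by decide)
      · simp only [U43.sgn_apply, U43.minus_apply, Pi.neg_apply] at h3
        exact absurd h3 (by decide)
    have hcom : commutator U43.Om6 ≤ S.subgroupOf U43.Om6 := by
      rw [commutator_def, Subgroup.commutator_le]
      intro a _ b _
      obtain ⟨a', ha', ea⟩ : U43.qm a ∈ (S.subgroupOf U43.Om6).map U43.qm := htop ▸ Subgroup.mem_top _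
      obtain ⟨b', hb', eb⟩ : U43.qm b ∈ (S.subgroupOf U43.Om6).map U43.qm := htop ▸ Subgroup.mem_top _
      have za : a'⁻¹ * a ∈ Subgroup.center U43.Om6 := QuotientGroup.eq.1 ea
      have zb : b'⁻¹ * b ∈ Subgroup.center U43.Om6 := QuotientGroup.eq.1 eb
      have ca := Subgroup.mem_center_iff.1 za
      have cb := Subgroup.mem_center_iff.1 zb
      have : ⁅a, b⁆ = ⁅a', b'⁆ := by
        obtain ⟨c, rfl⟩ : ∃ c, a = a' * c := ⟨a'⁻¹ * a, by group⟩
        obtain ⟨d, rfl⟩ : ∃ d, b = b' * d := ⟨b'⁻¹ * b, by group⟩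
        simp only [inv_mul_cancel_left] at ca cb
        simp only [commutatorElement_def, mul_inv_rev]
        calc a' * c * (b' * d) * (c⁻¹ * a'⁻¹) * (d⁻¹ * b'⁻¹)
            = a' * (c * b') * d * c⁻¹ * a'⁻¹ * d⁻¹ * b'⁻¹ := by group
          _ = a' * b' * (c * d) * c⁻¹ * a'⁻¹ * d⁻¹ * b'⁻¹ := by rw [← ca b']; group
          _ = a' * b' * (d * a'⁻¹) * d⁻¹ * b'⁻¹ := by rw [← ca d]; group
          _ = a' * b' * a'⁻¹ * b'⁻¹ := by rw [← cb a'⁻¹]; group
      rw [this]
      rw [commutatorElement_def]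
      exact mul_mem (mul_mem (mul_mem ha' hb') (inv_mem ha')) (inv_mem hb')
    rw [U43.perfect_Om6] at hcom
    exact fun g hg => hSr (hcom (Subgroup.mem_top (⟨g, hg⟩ : U43.Om6)))
  -- an element inverting `y`
  obtain ⟨m₀, hm₀, hm₀y⟩ := M.reach_refGroup hD hprim ht hs (x := e 6) (y := -e 6) (by decide) (by decide)
    (by decide)
  obtain ⟨τ, hτ, -, hτq, hτa⟩ := M.refGroup_iso hm₀
  have hτ6 : τ (e 6) = -e 6 := M.φ_inj (by rw [← hτ, hm₀y])
  have hneg : ∀ x, τ (-x) = -τ x := fun x => map_neg (AddMonoidHom.mk' τ hτa) x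
  have hτW : ∀ x, τ x 6 = -x 6 := fun x => by
    have h := Data.iso_b hτq hτa x (e 6)
    rw [hτ6, b_neg_right, b_six, b_six] at h
    rw [← h, neg_neg]
  have hsplit : ∀ x : V, x = up (dn x) + x 6 • e 6 := fun x => funext fun i => by
    by_cases hi : i.val < 6
    · have : i ≠ 6 := fun k => by subst k; simp at hi
      simp [up, dn, e, hi, Pi.single_eq_of_ne this]
    · have h6 : i = 6 := Fin.ext (by have := i.isLt; show i.val = 6; omega)
      subst h6
      simp [up, e]
  have hrho : ∀ x, τ (rho x) = rho (τ x) := by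
    intro x
    have e1 : rho x = -(up (dn x)) + x 6 • e 6 := funext fun i => by
      conv_lhs => rw [hsplit x]
      by_cases hi : i = 6
      · subst hi; simp [rho, up_six, e]
      · simp [rho, hi, e, Pi.single_eq_of_ne hi]
    have hts : ∀ (t : ZMod 3) w, τ (t • w) = t • τ w := fun t w =>
      map_smul (AddMonoidHom.toZModLinearMap 3 (AddMonoidHom.mk' τ hτa)) t w
    conv_rhs => rw [hsplit x, hτa, hts, hτ6]
    rw [e1, hτa, hts, hτ6, hneg]
    funext i
    have hw := hτW (up (dn x))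
    rw [up_six, neg_zero] at hw
    by_cases hi : i = 6
    · subst hi; simp [rho, hw]
    · simp [rho, hi, e, Pi.single_eq_of_ne hi]
  have hz0 : Acts M.φ (m₀ * z * m₀⁻¹ * z) id := fun x => by
    have hinv : ∀ w, m₀⁻¹ * M.φ (τ w) * m₀ = M.φ w := fun w => by rw [← hτ w]; group
    obtain ⟨w, rfl⟩ : ∃ w, rho (τ w) = x := by
      obtain ⟨τ', -, hr⟩ := Function.bijective_iff_has_inverse.1 (show Function.Bijective τ from
        ⟨fun a b h => M.φ_inj (mul_left_cancel (mul_right_cancel ((hτ a).trans (h ▸ (hτ b).symm)))),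
          fun a => by
            obtain ⟨k, hk⟩ := (Subgroup.mem_normalizer_iff.1 (inv_mem (M.refGroup_le hm₀)) (M.φ a)).1 ⟨a, rfl⟩
            refine ⟨k, M.φ_inj ?_⟩
            rw [← hτ k, hk]; group⟩)
      exact ⟨τ' (rho x), by rw [hr, rho_rho]⟩
    rw [show m₀ * z * m₀⁻¹ * z * M.φ (rho (τ w)) * (m₀ * z * m₀⁻¹ * z)⁻¹ =
      m₀ * (z * (m₀⁻¹ * (z * M.φ (rho (τ w)) * z⁻¹) * m₀) * z⁻¹) * m₀⁻¹ by group, hza, rho_rho, hinv, hza, hτ, hrho]
    rfl
  obtain ⟨k, hk⟩ := ker_mem M hD hprim ht hs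
    (mul_mem (mul_mem (mul_mem (M.refGroup_iso hm₀) hzi) (inv_mem (M.refGroup_iso hm₀))) hzi) hz0
  have hzk : z * M.φ k * z⁻¹ = (M.φ k)⁻¹ := by
    rw [hk, mul_inv_rev, mul_inv_rev, mul_inv_rev, inv_inv, hzi']
    calc z * (m₀ * z * m₀⁻¹ * z) * z = z * (m₀ * (z * m₀⁻¹)) * (z * z) := by group
      _ = _ := by rw [hzz, mul_one]
  have hz'' : m₀ * z * m₀⁻¹ = M.φ k * z := by
    rw [hk, mul_assoc (m₀ * z * m₀⁻¹), hzz, mul_one]
  have hmy : (M.φ k * m₀) * y * (M.φ k * m₀)⁻¹ = y⁻¹ := by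
    rw [show (M.φ k * m₀) * y * (M.φ k * m₀)⁻¹ = M.φ k * (m₀ * y * m₀⁻¹) * (M.φ k)⁻¹ by group, hm₀y,
      M.acts_φ k, id, M.φ_neg]
  have hmz : Commute (M.φ k * m₀) z := by
    refine mul_inv_eq_iff_eq_mul.1 ?_
    have h3 : M.φ k ^ 3 = 1 := by
      rw [← M.φ_nsmul, ← Nat.cast_smul_eq_nsmul (ZMod 3), show ((3 : ℕ) : ZMod 3) = 0 from rfl, zero_smul, M.φ_zero]
    have hswap : z * (M.φ k)⁻¹ = M.φ k * z := by
      rw [eq_comm, ← inv_inv (M.φ k * z), ← mul_inv_eq_one, inv_inv, mul_inv_rev, inv_inv, hzi']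
      calc (M.φ k * z) * (M.φ k * z) = M.φ k * (z * M.φ k * z⁻¹) * (z * z) := by group
        _ = 1 := by rw [hzk, hzz, mul_one, mul_inv_cancel]
    rw [show (M.φ k * m₀) * z * (M.φ k * m₀)⁻¹ = M.φ k * (m₀ * z * m₀⁻¹) * (M.φ k)⁻¹ by group, hz'',
      show M.φ k * (M.φ k * z) * (M.φ k)⁻¹ = M.φ k * M.φ k * (z * (M.φ k)⁻¹) by group, hswap,
      show M.φ k * M.φ k * (M.φ k * z) = M.φ k ^ 3 * z by rw [pow_three]; group, h3, one_mul]
  refine ⟨⟨⟨T₀, hT₀⟩, y, P, f, M.φ k * m₀, ?_, ?_, fun g hg => (hP.1 hg).1, hymem, hzmem, ?_, ?_, ?_, homega, ?_,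
    hmz, hmy, ?_⟩⟩
  · exact fun h => absurd (M.φ_inj (h.trans M.φ_zero.symm)) (by decide)
  · rw [hy, ← M.φ_nsmul, ← Nat.cast_smul_eq_nsmul (ZMod 3), show ((3 : ℕ) : ZMod 3) = 0 from rfl, zero_smul,
      M.φ_zero]
  · refine orth_ext fun x => ?_
    rw [hf, congrFun (acts_unique M (hσ ⟨y, hymem⟩) (M.acts_φ (e 6))) (up x), orth_one_apply]
    exact dn_up x
  · refine orth_ext fun x => ?_
    rw [hf, congrFun (acts_unique M (hσ ⟨z, hzmem⟩) hza) (up x), U43.minus_apply]
    funext i
    have hi : (i.castSucc : Fin 7) ≠ 6 := fun k => by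
      have := congrArg Fin.val k; simp at this; omega
    simp [dn, rho, hi, up]
  · intro g hg
    have hact : Acts M.φ (g : G) id := by
      intro x
      rw [hσ g x]
      refine congrArg M.φ ?_
      have hW : ∀ w : U43.V6, σ g (up w) = up w := fun w => by
        rw [← hup, ← hf, hg, orth_one_apply]
      conv_lhs => rw [hsplit x, hσa, hσs, hσ6, hW, ← hsplit x]
      rfl
    obtain ⟨k, hk⟩ := ker_mem M hD hprim ht hs (hP.1 g.2).2 hact
    have hkz : Commute (M.φ k) z := hk ▸ (hP.1 g.2).1.1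
    have hk6 : rho k = k := M.φ_inj (by rw [← hza k, hkz.symm.eq, mul_inv_cancel_right])
    have hk' : k = k 6 • e 6 := funext fun i => by
      by_cases hi : i = 6
      · subst hi; simp [e]
      · have h := congrFun hk6 i
        simp only [rho, if_neg hi] at h
        simp [e, Pi.single_eq_of_ne hi, (show ∀ a : ZMod 3, -a = a → a = 0 by decide) _ h]
    rw [← hk, hk', M.φ_smul]
    exact Subgroup.pow_mem _ (Subgroup.mem_zpowers y) _
  · obtain ⟨g, hg, -⟩ := hmemb (U43.ev 0) (hev 0)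
    exact ⟨g, hg⟩
  · intro g hg
    -- the tetrad of a member over a reflection determines the line
    have hline : ∀ a : U43.V6, U43.dt a a = 1 → (f g : U43.V6 ≃ₗ[U43.K] U43.V6) a = a ∨
        (f g : U43.V6 ≃ₗ[U43.K] U43.V6) a = -a := by
      intro a ha
      obtain ⟨s, hsD, hsa, -⟩ := hmemb a ha
      have hsz := (hP.1 s.2).1.1
      obtain ⟨T, hT, hsT⟩ := exists_tetrad_of_commute hD hprim ht hT₀ hsD hsz
      set w := σ g (up a) with hw
      have hw6 : w 6 = 0 := by rw [hw, hσW, up_six]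
      have hwq : q w = 1 := by rw [hw, hσq, q_up, ha]
      have hs'D : (g : G) * s * (g : G)⁻¹ ∈ D := hD.2.1 _ _ hsD
      have hs'z : Commute ((g : G) * s * (g : G)⁻¹) z :=
        ((hP.1 g.2).1.1.mul_left hsz).mul_left (hP.1 g.2).1.1.inv_left
      have hsmul : ∀ x, σ g (rv (up a) x) = rv w (σ g x) := fun x => by
        rw [hw, rv, rv, Data.iso_b (hσq g) (hσa g), sub_eq_add_neg, hσa, ← neg_smul, hσs, neg_smul, ← sub_eq_add_neg]
      have hs'a : Acts M.φ ((g : G) * s * (g : G)⁻¹) (rv w) := M.acts_conj (hσ g) hsa (hσb g).2 hsmul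
      have hv : q (up a) = 1 := (q_up a).trans ha
      have hb : M24Seven.b (up a) w = 0 ∨ w = up a ∨ w = -up a := by
        have hc := hT.comm s hsT _ (hg T hT s hsT)
        exact line_of_commute hv
          (congrFun (acts_unique M (M.acts_mul hsa hs'a) (τ := rv w ∘ rv (up a)) (by rw [hc.eq]; exact M.acts_mul hs'a hsa)) (up a))
      rcases hb with hb | hb
      · have hiff : w = up a ∨ w = -up a := by
          refine line_eq hv (up_six a) hwq hw6 hb fun x hx hx6 => ?_
          obtain ⟨r, hrD, hrz, hra⟩ := exists_member M hD hprim ht hs hzi hza hzz hx hx6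
          have hcomm : ∀ (v : V) (p : G), q v = 1 → v 6 = 0 → p ∈ D → Commute p z → Acts M.φ p (rv v) →
              (Commute r p ↔ (M24Seven.b x v = 0 ∨ x = v ∨ x = -v)) := by
            intro v p hv hv6 hpD hpz hpa
            constructor
            · intro hc
              rcases line_of_commute hx
                (congrFun (acts_unique M (M.acts_mul hra hpa) (τ := rv v ∘ rv x) (by rw [hc.eq]; exact M.acts_mul hpa hra)) x) with h | h | h
              · exact Or.inl h
              · exact Or.inr (Or.inl h.symm)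
              · exact Or.inr (Or.inr (by rw [h, neg_neg]))
            · rintro (h | h | h)
              · exact commute_of_orth M hD hprim ht hs hrD hpD hx hv hra hpa h
              · subst h
                rw [member_unique M hD hprim ht hs hzi hza hrD hpD hrz hpz hx hx6 hra hpa]
              · have hneg : rv v = rv x := by
                  subst h
                  funext y
                  simp [rv, b_neg_left]
                rw [member_unique M hD hprim ht hs hzi hza hrD hpD hrz hpz hx hx6 hra (hneg ▸ hpa)]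
          rw [← hcomm (up a) s hv (up_six a) hsD hsz hsa, ← hcomm w _ hwq hw6 hs'D hs'z hs'a]
          exact ⟨fun h => commute_all hD hprim ht hT hrD hrz hsT h (hg T hT s hsT),
            fun h => commute_all hD hprim ht hT hrD hrz (hg T hT s hsT) h hsT⟩
        rw [hf, ← hw]
        rcases hiff with h | h <;> rw [h]
        · exact Or.inl (dn_up a)
        · exact Or.inr (funext fun i => congrArg Neg.neg (congrFun (dn_up a) i))
      · rw [hf, ← hw]
        rcases hb with h | h <;> rw [h]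
        · exact Or.inl (dn_up a)
        · exact Or.inr (funext fun i => congrArg Neg.neg (congrFun (dn_up a) i))
    have hc : ∀ i, ∃ c : ZMod 3, (c = 1 ∨ c = -1) ∧
        (f g : U43.V6 ≃ₗ[U43.K] U43.V6) (U43.ev i) = c • U43.ev i := fun i => by
      rcases hline _ (hev i) with h | h
      · exact ⟨1, Or.inl rfl, by rw [h, one_smul]⟩
      · exact ⟨-1, Or.inr rfl, by rw [h, neg_one_smul]⟩
    choose c hcpm hc using hc
    have hsame : ∀ i j, c i = c j := by
      intro i j
      by_cases hij : i = j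
      · rw [hij]
      obtain ⟨k, l, hki, hkj, hli, hlj, hkl, hq⟩ := coord_line i j hij
      have h := hline _ hq
      simp only [map_add, hc] at h
      rcases h with h | h
      · have h1 := congrFun h i
        have h2 := congrFun h j
        simp [U43.ev, hki.symm, hli.symm, hkj.symm, hlj.symm, hij, Ne.symm hij] at h1 h2
        rw [h1, h2]
      · have h1 := congrFun h i
        have h2 := congrFun h j
        simp [U43.ev, hki.symm, hli.symm, hkj.symm, hlj.symm, hij, Ne.symm hij] at h1 h2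
        rw [h1, h2]
    rcases hcpm 0 with h0 | h0
    · exact Or.inl (U43.orth_ext_ev fun i => by rw [hc, hsame i 0, h0, one_smul, orth_one_apply])
    · exact Or.inr (U43.orth_ext_ev fun i => by rw [hc, hsame i 0, h0, neg_one_smul, U43.minus_apply])

end CfsgLib.Fischer.FourProduct
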