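import Cfsg.Agent.Lib.Fischer.M24Seven.Form

/-!
Two orthogonal lines of norm one in the six space of minus type are told apart by the lines orthogonal or equal to
them.
-/

set_option autoImplicit false

namespace CfsgLib.Fischer.FourProduct

open CfsgLib.Fischer.M24Seven

/-- The code of the negative. -/
def ng (i : ℕ) : ℕ :=
  (3 - dg i 0) % 3 + 3 * ((3 - dg i 1) % 3) + 9 * ((3 - dg i 2) % 3) + 27 * ((3 - dg i 3) % 3)
    + 81 * ((3 - dg i 4) % 3) + 243 * ((3 - dg i 5) % 3)

/-- One code on each line of norm one. -/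
def reps : List ℕ := (List.range 729).filter fun i => qn i == 1 && decide (i < ng i)

theorem chkSeparate : (reps.all fun i => reps.all fun j => (i == j) || (bn i j != 0) ||
    reps.any fun k => ((bn k i == 0) || (k == i)) != ((bn k j == 0) || (k == j))) = true := by
  decide +kernel

theorem chkCodes : ∀ i < 729, ng (ng i) = i ∧ ng i < 729 ∧
    (qn i = 1 → i < ng i ∨ (ng i < i ∧ qn (ng i) = 1)) := by
  decide +kernel

theorem dg_six {i : ℕ} (h : i < 729) : dg i 6 = 0 := by
  unfold dg; omega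

theorem enc_dec {i : ℕ} (h : i < 729) : enc (dec i) = i := by
  have hv : ∀ k : Fin 7, ((dec i) k).val = dg i k.val := fun k => by
    show ((dg i k.val : ℕ) : ZMod 3).val = _
    rw [ZMod.val_natCast]
    exact Nat.mod_eq_of_lt (Nat.mod_lt _ (by norm_num))
  simp only [enc, hv]
  simp only [Fin.isValue, Fin.val_zero, Fin.val_one, Fin.val_two, show ((3 : Fin 7) : ℕ) = 3 from rfl,
    show ((4 : Fin 7) : ℕ) = 4 from rfl, show ((5 : Fin 7) : ℕ) = 5 from rfl, show ((6 : Fin 7) : ℕ) = 6 from rfl]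
  unfold dg; omega

theorem dec_ng {i : ℕ} (h : i < 729) : dec (ng i) = -dec i := by
  funext k
  show (dg (ng i) k.val : ZMod 3) = -(dg i k.val : ZMod 3)
  have h2 : (dg (ng i) k.val + dg i k.val) % 3 = 0 := by
    unfold ng dg
    fin_cases k <;> simp <;> omega
  rw [eq_neg_iff_add_eq_zero, ← Nat.cast_add, ← ZMod.natCast_mod, h2, Nat.cast_zero]

theorem bn_eq_zero (g i : ℕ) : bn g i = 0 ↔ b (dec g) (dec i) = 0 := by
  rw [← neg_eq_zero (a := b (dec g) (dec i)), ← cast_bn, CharP.cast_eq_zero_iff (ZMod 3) 3]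
  unfold bn
  omega

theorem mem_reps {i : ℕ} : i ∈ reps ↔ i < 729 ∧ qn i = 1 ∧ i < ng i := by
  simp [reps]

theorem exists_rep {v : V} (hv : q v = 1) (h6 : v 6 = 0) : ∃ i ∈ reps, v = dec i ∨ v = -dec i := by
  have hlt : enc v < 729 := by
    have := fun k => ZMod.val_lt (v k)
    have h0 := this 0; have h1 := this 1; have h2 := this 2; have h3 := this 3
    have h4 := this 4; have h5 := this 5
    have h7 : (v 6).val = 0 := by rw [h6]; rfl
    unfold enc; omega
  have hq : qn (enc v) = 1 := by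
    have h1 : ((qn (enc v) : ℕ) : ZMod 3) = ((1 : ℕ) : ZMod 3) := by rw [cast_qn, dec_enc, hv, Nat.cast_one]
    rw [ZMod.natCast_eq_natCast_iff'] at h1
    have h3 : qn (enc v) < 3 := Nat.mod_lt _ (by norm_num)
    omega
  obtain ⟨hnn, hlt', hor⟩ := chkCodes _ hlt
  rcases hor hq with h | ⟨h, h'⟩
  · exact ⟨enc v, mem_reps.2 ⟨hlt, hq, h⟩, Or.inl (dec_enc v).symm⟩
  · exact ⟨ng (enc v), mem_reps.2 ⟨hlt', h', by rwa [hnn]⟩,
      Or.inr (by rw [dec_ng hlt, dec_enc, neg_neg])⟩

theorem b_neg_right (u v : V) : b u (-v) = -b u v := by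
  simp only [b, Pi.neg_apply]; ring

theorem b_neg_left (u v : V) : b (-u) v = -b u v := by
  simp only [b, Pi.neg_apply]; ring

/-- Two orthogonal vectors of norm one with the same orthogonal-or-equal lines span one line. -/
theorem line_eq {v w : V} (hv : q v = 1) (hv6 : v 6 = 0) (hw : q w = 1) (hw6 : w 6 = 0) (hb : b v w = 0)
    (h : ∀ u, q u = 1 → u 6 = 0 → ((b u v = 0 ∨ u = v ∨ u = -v) ↔ (b u w = 0 ∨ u = w ∨ u = -w))) :
    w = v ∨ w = -v := by
  obtain ⟨i, hi, hvi⟩ := exists_rep hv hv6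
  obtain ⟨j, hj, hwj⟩ := exists_rep hw hw6
  have htr : ∀ {k i : ℕ} {x : V}, k ∈ reps → i ∈ reps → (x = dec i ∨ x = -dec i) →
      ((b (dec k) x = 0 ∨ dec k = x ∨ dec k = -x) ↔ (bn k i = 0 ∨ k = i)) := by
    intro k i x hk hi hx
    have hki : dec k = -dec i → False := by
      intro e
      obtain ⟨hk1, -, hk3⟩ := mem_reps.1 hk
      obtain ⟨hi1, -, hi3⟩ := mem_reps.1 hi
      obtain ⟨hnn, hlt, -⟩ := chkCodes i hi1
      have : k = ng i := by
        have := congrArg enc (e.trans (dec_ng hi1).symm)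
        rwa [enc_dec hk1, enc_dec hlt] at this
      subst this
      omega
    have heq : dec k = dec i ↔ k = i := by
      refine ⟨fun e => ?_, fun e => by rw [e]⟩
      have := congrArg enc e
      rwa [enc_dec (mem_reps.1 hk).1, enc_dec (mem_reps.1 hi).1] at this
    rw [bn_eq_zero, ← heq]
    rcases hx with rfl | rfl
    · exact ⟨fun h => h.imp id fun h => h.resolve_right hki, fun h => h.imp id Or.inl⟩
    · rw [b_neg_right, neg_eq_zero, neg_neg]
      exact ⟨fun h => h.imp id fun h => h.resolve_left hki, fun h => h.imp id Or.inr⟩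
  have h1 := List.all_eq_true.1 (List.all_eq_true.1 chkSeparate i hi) j hj
  simp only [Bool.or_eq_true, beq_iff_eq, bne_iff_ne] at h1
  rcases h1 with (h1 | h1) | h1
  · subst h1
    rcases hvi with rfl | rfl <;> rcases hwj with rfl | rfl <;> simp
  · refine absurd ?_ h1
    rw [bn_eq_zero]
    rcases hvi with rfl | rfl <;> rcases hwj with rfl | rfl <;>
      simpa [b_neg_right, b_neg_left] using hb
  · obtain ⟨k, hk, hne⟩ := List.any_eq_true.1 h1
    have hk6 : dec k 6 = 0 := by
      show (dg k 6 : ZMod 3) = 0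
      rw [dg_six (mem_reps.1 hk).1, Nat.cast_zero]
    have hkq : q (dec k) = 1 := by rw [← cast_qn, (mem_reps.1 hk).2.1, Nat.cast_one]
    have := (htr hk hi hvi).symm.trans ((h _ hkq hk6).trans (htr hk hj hwj))
    rw [bne_iff_ne, ne_eq, Bool.eq_iff_iff] at hne
    simp only [Bool.or_eq_true, beq_iff_eq] at hne
    exact absurd this hne

end CfsgLib.Fischer.FourProduct
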