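import Cfsg.Agent.Lib.Fischer.FourProduct.Structure

/-!
Groups of type M(24): the centralizer in the commutator subgroup of a product of four commuting members.
-/

set_option autoImplicit false
set_option linter.unusedSectionVars false
set_option linter.style.haveILetI false

namespace CfsgLib.Fischer.FourProduct

open CfsgLib.Fischer CfsgLib.InvChar.FischerProducts CfsgLib.Fischer.MaxCommuting
open CfsgLib.SchurMult
open scoped Classical commutatorElement

universe u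

variable {G : Type u} [Group G] [Finite G] {D : Set G} {z : G}
variable (hD : Cfsg.IsThreeTranspositionGroup D) (hprim : Cfsg.IsPrimitiveUnderConj D)
  (ht : Cfsg.IsOfTypeM24 G D)

include hD hprim ht

/-- Conjugating a tetrad. -/
theorem tetrad_map {T : Finset G} (hT : IsTetrad D z T) (g : G) :
    IsTetrad D (g * z * g⁻¹) (T.image fun a => g * a * g⁻¹) := by
  refine ⟨by rw [Finset.card_image_of_injective _ fun a b h => mul_left_cancel (mul_right_cancel h), hT.card],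
    fun a ha => ?_, fun a ha b hb => ?_, ?_⟩
  · obtain ⟨b, hb, rfl⟩ := Finset.mem_image.1 ha
    exact hD.2.1 g b (hT.sub b hb)
  · obtain ⟨a, ha', rfl⟩ := Finset.mem_image.1 ha
    obtain ⟨b, hb', rfl⟩ := Finset.mem_image.1 hb
    exact (conj_commute_iff g a b).2 (hT.comm a ha' b hb')
  · rw [show (T.image fun a => g * a * g⁻¹) = T.image (MulAut.conj g) from rfl,
      word_map (MulAut.conj g) hT.comm, hT.prod, MulAut.conj_apply]

/-- A frame may be conjugated. -/
theorem frame_map (F : Frame D z) (g : G) : Nonempty (Frame D (g * z * g⁻¹)) := by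
  let c : G ≃* G := MulAut.conj g
  let e : F.P ≃* F.P.map c.toMonoidHom := F.P.equivMapOfInjective c.toMonoidHom c.injective
  have he : ∀ (x : G) (hx : x ∈ F.P) (hx' : g * x * g⁻¹ ∈ F.P.map c.toMonoidHom),
      e.symm ⟨g * x * g⁻¹, hx'⟩ = ⟨x, hx⟩ := fun x hx hx' => by
    rw [MulEquiv.symm_apply_eq]; exact Subtype.ext rfl
  have hcoe : ∀ p : F.P.map c.toMonoidHom, (p : G) = g * (e.symm p : G) * g⁻¹ := fun p =>
    (congrArg Subtype.val (e.apply_symm_apply p)).symm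
  obtain ⟨T, hT⟩ := F.four
  refine ⟨⟨⟨_, tetrad_map hD hprim ht hT g⟩, g * F.y * g⁻¹, F.P.map c.toMonoidHom, F.f.comp e.symm.toMonoidHom,
    g * F.m * g⁻¹, fun h => F.y_ne (conj_eq_one_iff.1 h), ?_, ?_, ⟨_, F.y_mem, rfl⟩, ⟨_, F.z_mem, rfl⟩, ?_, ?_,
    fun p hp => ?_, fun w hw => ?_, ?_, ?_, ?_, fun p hp => ?_⟩⟩
  · rw [conj_pow, F.y_cube, mul_one, mul_inv_cancel]
  · rintro _ ⟨p, hp, rfl⟩
    exact ⟨(conj_commute_iff g p z).2 (F.P_le p hp).1, (conj_commute_iff g p F.y).2 (F.P_le p hp).2⟩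
  · exact (congrArg F.f (he F.y F.y_mem _)).trans F.f_y
  · exact (congrArg F.f (he z F.z_mem _)).trans F.f_z
  · obtain ⟨i, hi⟩ := F.ker (e.symm p) hp
    refine ⟨i, ?_⟩
    rw [hcoe p, ← hi]
    exact conj_zpow
  · obtain ⟨p, hp⟩ := F.omega hw
    exact ⟨e p, by show F.f (e.symm (e p)) = w; rw [e.symm_apply_apply, hp]⟩
  · obtain ⟨s, hs⟩ := F.member
    exact ⟨e s, hD.2.1 g _ hs⟩
  · exact (conj_commute_iff g F.m z).2 F.m_z
  · rw [show g * F.m * g⁻¹ * (g * F.y * g⁻¹) * (g * F.m * g⁻¹)⁻¹ = g * (F.m * F.y * F.m⁻¹) * g⁻¹ by group, F.m_y]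
    group
  · refine F.scalar (e.symm p) fun T hT a ha => ?_
    have h := hp _ (tetrad_map hD hprim ht hT g) _ (Finset.mem_image.2 ⟨a, ha, rfl⟩)
    obtain ⟨b, hb, hbe⟩ := Finset.mem_image.1 h
    rw [hcoe p] at hbe
    have : b = (e.symm p : G) * a * (e.symm p : G)⁻¹ :=
      (MulAut.conj g).injective (hbe.trans (by rw [MulAut.conj_apply]; group))
    rwa [← this]

/-- **The centralizer of a product of four commuting members.** -/
theorem structure_of_frame (F : Frame D z) (L : Subgroup G) (hL : L = commutator G) (C : Subgroup G)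
    (hC : C = L ⊓ Subgroup.centralizer ({z} : Set G)) : ∃ (Q : Subgroup ↥C) (_ : Q.Normal),
      Cfsg.generalizedFittingSubgroup ↥C = Q ∧ Cfsg.IsExtraspecial 2 ↥Q ∧ Nat.card Q = 2 ^ 13 ∧
      ∃ (N M : Subgroup ↥C) (_ : N.Normal) (_ : M.Normal), Q ≤ N ∧ N ≤ M ∧ Nat.card N = 3 * Nat.card Q ∧
        (∃ (K : Type) (_ : Field K) (_ : Fintype K), Fintype.card K = 9 ∧
          Nonempty (↥M ⧸ N.subgroupOf M ≃* Cfsg.PSU 4 K 3)) ∧ M.index = 2 := by
  obtain ⟨T₀, hT₀⟩ := F.four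
  obtain ⟨hQcard, hPcard, hK2, hinf⟩ := card_facts hD hprim ht F
  obtain ⟨ε, hε⟩ := Parity.exists_parity hD hprim ht
  rw [hL, Parity.commutator_eq_ker hD hprim ht hε] at hC
  set K := Subgroup.centralizer ({z} : Set G) with hKdef
  have hmem : ∀ {x : G}, x ∈ C ↔ ε x = 1 ∧ Commute x z := by
    intro x; rw [hC, Subgroup.mem_inf, MonoidHom.mem_ker, hKdef, Subgroup.mem_centralizer_singleton_iff]; exact Iff.rfl
  set Qg := pairs D z with hQg
  have hzQ := z_mem_pairs hD hprim ht hT₀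
  have hzz := z_sq hD hprim ht hT₀
  have hQC : Qg ≤ C := fun q hq => hmem.2 ⟨pairs_le_ker hD hε hq,
    Subgroup.mem_centralizer_singleton_iff.1 (pairs_le_centralizer hD hprim ht hq)⟩
  set O := omegaPart F with hO
  have hOC : O ≤ C := fun p hp =>
    hmem.2 ⟨omegaPart_ker hD hprim ht F hp, (F.P_le p (omegaPart_le hD hprim ht F hp)).1⟩
  have hyO : F.y ∈ O :=
    ⟨⟨F.y, F.y_mem⟩, show F.f ⟨F.y, F.y_mem⟩ ∈ U43.Om6 by rw [F.f_y]; exact one_mem _, rfl⟩
  have hzO : z ∈ O :=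
    ⟨⟨z, F.z_mem⟩, show F.f ⟨z, F.z_mem⟩ ∈ U43.Om6 by rw [F.f_z]; exact U43.minus.2, rfl⟩
  -- cardinalities
  have hMcard : 2 * Nat.card ↥(O ⊔ Qg) = 2 ^ 13 * 19595520 := by
    have h1 : Nat.card ↥(O ⊓ Qg) = 2 := by
      have hle : O ⊓ Qg ≤ F.P ⊓ Qg := inf_le_inf_right _ (omegaPart_le hD hprim ht F)
      refine le_antisymm (hinf ▸ Subgroup.card_le_of_le hle) ?_
      refine le_trans ?_ (Subgroup.card_le_of_le (H := Subgroup.zpowers z) (Subgroup.zpowers_le.2 ⟨hzO, hzQ⟩))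
      rw [Nat.card_zpowers]
      have : orderOf z = 2 := orderOf_eq_prime (by rw [pow_two, hzz]) (z_ne_one hD hprim ht hT₀)
      omega
    have h := CfsgLib.ThompsonJ.card_sup_mul_card_inf O Qg
      (le_normalizer hD hprim ht ((omegaPart_le hD hprim ht F).trans (P_le hD hprim ht F)))
    rw [h1, hQcard, natCard_omegaPart hD hprim ht F] at h
    omega
  set Y := Subgroup.zpowers F.y with hY
  have hYO : Y ≤ O := Subgroup.zpowers_le.2 hyO
  have hNcard : Nat.card ↥(Y ⊔ Qg) = 3 * 2 ^ 13 := by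
    have h1 : Y ⊓ Qg = ⊥ := (Subgroup.eq_bot_iff_forall _).2 fun q hq =>
      eq_one_of_mem_zpowers_y hD hprim ht F hq.2 hq.1
    have h := CfsgLib.ThompsonJ.card_sup_mul_card_inf Y Qg
      (le_normalizer hD hprim ht ((hYO.trans (omegaPart_le hD hprim ht F)).trans (P_le hD hprim ht F)))
    rw [h1, Subgroup.card_bot, mul_one, hQcard, hY, Nat.card_zpowers, orderOf_y hD hprim ht F] at h
    exact h
  have hCcard : 2 * Nat.card C = Nat.card K := by
    obtain ⟨s, hs⟩ := F.member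
    let χ : K →* ℤˣ := ε.comp K.subtype
    have hk : χ.ker.map K.subtype = C := by
      ext x
      constructor
      · rintro ⟨k, hk, rfl⟩
        exact hmem.2 ⟨MonoidHom.mem_ker.1 hk, Subgroup.mem_centralizer_singleton_iff.1 k.2⟩
      · intro hx
        exact ⟨⟨x, Subgroup.mem_centralizer_singleton_iff.2 (hmem.1 hx).2⟩, (hmem.1 hx).1, rfl⟩
    have hr : χ.range = ⊤ := by
      refine eq_top_iff.2 fun u _ => ?_
      rcases Int.units_eq_one_or u with rfl | rfl
      · exact one_mem _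
      · exact ⟨⟨s, P_le hD hprim ht F s.2⟩, hε _ hs⟩
    have h := Subgroup.card_mul_index χ.ker
    rw [Subgroup.index_ker, hr, Subgroup.card_top,
      show Nat.card ℤˣ = 2 by rw [Nat.card_eq_fintype_card, Fintype.card_units_int],
      ← Subgroup.card_map_of_injective K.subtype_injective, hk] at h
    omega
  have hKval := natCard_centralizer hD hprim ht hT₀
  rw [← hKdef] at hKval
  -- the subgroups
  let Q : Subgroup C := Qg.subgroupOf C
  let N : Subgroup C := (Y ⊔ Qg).subgroupOf C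
  let M : Subgroup C := (O ⊔ Qg).subgroupOf C
  have hNC : Y ⊔ Qg ≤ C := sup_le (hYO.trans hOC) hQC
  have hMC : O ⊔ Qg ≤ C := sup_le hOC hQC
  have hcQ : Nat.card Q = 2 ^ 13 := by rw [Nat.card_congr (Subgroup.subgroupOfEquivOfLe hQC).toEquiv, hQcard]
  have hcN : Nat.card N = 3 * 2 ^ 13 := by rw [Nat.card_congr (Subgroup.subgroupOfEquivOfLe hNC).toEquiv, hNcard]
  have hcM : Nat.card M = Nat.card ↥(O ⊔ Qg) := Nat.card_congr (Subgroup.subgroupOfEquivOfLe hMC).toEquiv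
  have hMidx : M.index = 2 := by
    have h := Subgroup.card_mul_index M
    have h2 : 2 * (Nat.card M * M.index) = 2 * Nat.card C := by rw [h]
    rw [← mul_assoc, hcM, hMcard, hCcard, hKval] at h2
    norm_num at h2
    omega
  haveI hMn : M.Normal := Subgroup.normal_of_index_eq_two hMidx
  haveI hQn : Q.Normal := ⟨fun q hq k => pairs_conj hD hprim ht (hmem.1 k.2).2 hq⟩
  -- conjugates of `y`
  have hmy : F.m⁻¹ * F.y * F.m = F.y⁻¹ := by
    have h := congrArg (fun g => g⁻¹) F.m_y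
    simp only [mul_inv_rev, inv_inv] at h
    calc F.m⁻¹ * F.y * F.m = F.m⁻¹ * (F.m * (F.y⁻¹ * F.m⁻¹)) * F.m := by rw [h]
      _ = F.y⁻¹ := by group
  have hyz := (F.P_le _ F.y_mem).1
  have hconjq : ∀ q ∈ Qg, ∀ w, Commute w z → q * w * q⁻¹ * w⁻¹ ∈ Qg := fun q hq w hw => by
    rw [show q * w * q⁻¹ * w⁻¹ = q * (w * q⁻¹ * w⁻¹) by group]
    exact mul_mem hq (pairs_conj hD hprim ht hw (inv_mem hq))
  have hxy : ∀ x, Commute x z →
      (∃ q ∈ Qg, x * F.y * x⁻¹ = q * F.y) ∨ (∃ q ∈ Qg, x * F.y * x⁻¹ = q * F.y⁻¹) := by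
    intro x hx
    rcases cases_of_mem hD hprim ht F hx with h | h
    · obtain ⟨q, hq, p, hp, rfl⟩ := mem_sup_pairs hD hprim ht (P_le hD hprim ht F) h
      refine Or.inl ⟨q * F.y * q⁻¹ * F.y⁻¹, hconjq q hq _ hyz, ?_⟩
      rw [show q * p * F.y * (q * p)⁻¹ = q * (p * F.y * p⁻¹) * q⁻¹ by group, (F.P_le p hp).2.eq, mul_inv_cancel_right]
      group
    · obtain ⟨q, hq, p, hp, he⟩ := mem_sup_pairs hD hprim ht (P_le hD hprim ht F) h
      refine Or.inr ⟨q * F.y⁻¹ * q⁻¹ * F.y⁻¹⁻¹, hconjq q hq _ hyz.inv_left, ?_⟩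
      rw [show x = q * p * F.m⁻¹ by rw [← he]; group,
        show q * p * F.m⁻¹ * F.y * (q * p * F.m⁻¹)⁻¹ = q * (p * (F.m⁻¹ * F.y * F.m) * p⁻¹) * q⁻¹ by group, hmy,
        ((F.P_le p hp).2.inv_right).eq, mul_inv_cancel_right]
      group
  haveI hNn : N.Normal := by
    refine ⟨fun n hn k => ?_⟩
    have hk := (hmem.1 k.2).2
    have hn' : (n : G) ∈ Y ⊔ Qg := hn
    show (k : G) * n * (k : G)⁻¹ ∈ Y ⊔ Qg
    obtain ⟨q, hq, w, hw, he⟩ := mem_sup_pairs hD hprim ht
      ((hYO.trans (omegaPart_le hD hprim ht F)).trans (P_le hD hprim ht F)) hn'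
    have hky : (k : G) * F.y * (k : G)⁻¹ ∈ Y ⊔ Qg := by
      rcases hxy k hk with ⟨r, hr, e⟩ | ⟨r, hr, e⟩ <;> rw [e]
      · exact mul_mem (Subgroup.mem_sup_right hr) (Subgroup.mem_sup_left (Subgroup.mem_zpowers _))
      · exact mul_mem (Subgroup.mem_sup_right hr) (Subgroup.mem_sup_left (inv_mem (Subgroup.mem_zpowers _)))
    obtain ⟨i, rfl⟩ := hw
    rw [he, show (k : G) * (q * F.y ^ i) * (k : G)⁻¹ = k * q * (k : G)⁻¹ * (k * F.y ^ i * (k : G)⁻¹) by group,
      ← conj_zpow]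
    exact mul_mem (Subgroup.mem_sup_right (pairs_conj hD hprim ht hk hq)) (zpow_mem hky i)
  -- the extraspecial group
  have hQp : IsPGroup 2 Q := (isPGroup_pairs hD hprim ht hT₀).of_equiv (Subgroup.subgroupOfEquivOfLe hQC).symm
  let zC : C := ⟨z, hQC hzQ⟩
  have hext : Cfsg.IsExtraspecial 2 ↥Q := by
    let zQ : Q := ⟨zC, hzQ⟩
    refine isExtraspecial_of (z := zQ) hQp (fun h => z_ne_one hD hprim ht hT₀
      (congrArg (fun w : Q => ((w : C) : G)) h)) (fun x => Subtype.ext (Subtype.ext (hmem.1 x.1.2).2.eq))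
      (fun w hw => ?_) (fun x y => ?_) (fun x => ?_) ?_
    · rcases eq_of_central hD hprim ht F (w := ((w : C) : G)) w.2 (fun q hq =>
        congrArg (fun t : Q => ((t : C) : G)) (hw ⟨⟨q, hQC hq⟩, hq⟩).eq) with h | h
      · exact Or.inl (Subtype.ext (Subtype.ext h))
      · exact Or.inr (Subtype.ext (Subtype.ext h))
    · rcases conj_cases hD hprim ht hT₀ (p := ((x : C) : G)) (q := ((y : C) : G)) x.2 y.2 with h | h
      · exact Or.inl (Subtype.ext (Subtype.ext h))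
      · exact Or.inr (Subtype.ext (Subtype.ext h))
    · rcases sq_cases hD hprim ht hT₀ (q := ((x : C) : G)) x.2 with h | h
      · exact Or.inl (Subtype.ext (Subtype.ext h))
      · exact Or.inr (Subtype.ext (Subtype.ext h))
    · by_contra! hab
      have hsub : (Qg : Set G) ⊆ {1, z} := fun q hq => by
        rcases eq_of_central hD hprim ht F hq (fun r hr =>
          congrArg (fun t : Q => ((t : C) : G)) (hab ⟨⟨q, hQC hq⟩, hq⟩ ⟨⟨r, hQC hr⟩, hr⟩).eq) with h | h
        · exact Or.inl h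
        · exact Or.inr h
      have h1 := Set.ncard_le_ncard hsub (Set.toFinite _)
      rw [show (Qg : Set G).ncard = Nat.card Qg from (Nat.card_coe_set_eq _).symm, hQcard,
        Set.ncard_pair (z_ne_one hD hprim ht hT₀).symm] at h1
      norm_num at h1
  -- the quotient
  haveI := U43.isSimpleGroup_G0
  haveI : Finite U43.G0 := Nat.finite_of_card_ne_zero (by rw [U43.card_G0]; norm_num)
  let Oc : Subgroup F.P := U43.Om6.comap F.f
  let h1 : Oc →* U43.G0 := U43.qm.comp (omegaMap F)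
  have h1s : Function.Surjective h1 := (QuotientGroup.mk'_surjective _).comp (omegaMap_surjective hD hprim ht F)
  let inM : Oc →* M :=
    { toFun := fun p => ⟨⟨((p : F.P) : G), hOC (Subgroup.mem_map_of_mem _ p.2)⟩,
        Subgroup.mem_sup_left (Subgroup.mem_map_of_mem _ p.2)⟩
      map_one' := rfl
      map_mul' := fun _ _ => rfl }
  let h2 : Oc →* ↥M ⧸ N.subgroupOf M := (QuotientGroup.mk' (N.subgroupOf M)).comp inM
  have h2s : Function.Surjective h2 := by
    intro x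
    obtain ⟨x, rfl⟩ := QuotientGroup.mk'_surjective _ x
    obtain ⟨q, hq, p, hp, he⟩ := mem_sup_pairs hD hprim ht
      ((omegaPart_le hD hprim ht F).trans (P_le hD hprim ht F)) (x := ((x : C) : G)) x.2
    obtain ⟨p', hp', rfl⟩ := hp
    refine ⟨⟨p', hp'⟩, ?_⟩
    refine QuotientGroup.eq.2 ?_
    show (p' : G)⁻¹ * ((x : C) : G) ∈ Y ⊔ Qg
    rw [he, show (p' : G)⁻¹ * (q * F.P.subtype p') = (p' : G)⁻¹ * q * ((p' : G)⁻¹)⁻¹ by
      rw [Subgroup.subtype_apply]; group]
    exact Subgroup.mem_sup_right (pairs_conj hD hprim ht (F.P_le _ p'.2).1.inv_left hq)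
  have hker : h1.ker ≤ h2.ker := by
    intro p hp
    have hp' : F.f p.1 = 1 ∨ F.f p.1 = U43.minus.1 :=
      (U43.qm_eq_one.1 hp).imp (fun h => congrArg Subtype.val h) fun h => congrArg Subtype.val h
    refine (QuotientGroup.eq_one_iff _).2 ?_
    show ((p : F.P) : G) ∈ Y ⊔ Qg
    rcases scalar_cases hD hprim ht F hp' with h | h
    · exact Subgroup.mem_sup_left h
    · rw [show ((p : F.P) : G) = ((p : F.P) : G) * z * z by rw [mul_assoc, hzz, mul_one]]
      exact mul_mem (Subgroup.mem_sup_left h) (Subgroup.mem_sup_right hzQ)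
  let Φ : U43.G0 →* ↥M ⧸ N.subgroupOf M := h1.liftOfSurjective h1s ⟨h2, hker⟩
  have hΦs : Function.Surjective Φ := fun x => by
    obtain ⟨p, rfl⟩ := h2s x
    exact ⟨h1 p, MonoidHom.liftOfRightInverse_comp_apply _ _ _ _ _⟩
  have hNM : N ≤ M := fun x hx => (sup_le_sup_right hYO Qg : Y ⊔ Qg ≤ O ⊔ Qg) hx
  have hquot : Nat.card (↥M ⧸ N.subgroupOf M) = 3265920 := by
    have h := Subgroup.card_eq_card_quotient_mul_card_subgroup (N.subgroupOf M)
    rw [Nat.card_congr (Subgroup.subgroupOfEquivOfLe hNM).toEquiv, hcN, hcM] at h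
    omega
  have hΦb : Function.Bijective Φ := by
    exact (Nat.bijective_iff_surjective_and_card _).2 ⟨hΦs, by rw [U43.card_G0, hquot]⟩
  let eQ : ↥M ⧸ N.subgroupOf M ≃* U43.G0 := (MulEquiv.ofBijective Φ hΦb).symm
  have hQN : Q ≤ N := fun x hx => (le_sup_right : Qg ≤ Y ⊔ Qg) hx
  -- the generalized Fitting subgroup
  have hcent : Subgroup.centralizer (Q : Set C) ≤ Q := by
    intro x hx
    refine centralizer_le hD hprim ht F (hmem.1 x.2).2 fun q hq => ?_
    exact (congrArg Subtype.val (Subgroup.mem_centralizer_iff.1 hx ⟨q, hQC hq⟩ hq)).symm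
  have hcore : Cfsg.pCore 2 C ≤ Q := by
    haveI : Fact (Nat.Prime 2) := ⟨Nat.prime_two⟩
    set R := Cfsg.pCore 2 C with hR
    haveI hRn : R.Normal := inferInstance
    have hQR : Q ≤ R := CfsgLib.Cores.le_pCore hQp
    have hRp := CfsgLib.Cores.isPGroup_pCore 2 C
    have hcube : ∀ w : C, w ∈ R → w ^ 3 = 1 → w = 1 := by
      intro w hw h3
      obtain ⟨k, hk⟩ := hRp ⟨w, hw⟩
      have hk' : w ^ (2 ^ k) = 1 := congrArg Subtype.val hk
      have := Nat.dvd_gcd (orderOf_dvd_of_pow_eq_one h3) (orderOf_dvd_of_pow_eq_one hk')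
      rw [Nat.Coprime.gcd_eq_one (Nat.Coprime.pow_right _ (by norm_num))] at this
      exact orderOf_eq_one_iff.1 (Nat.dvd_one.1 this)
    let yC : C := ⟨F.y, hOC hyO⟩
    have hy3 : yC ^ 3 = 1 := Subtype.ext (show F.y ^ 3 = 1 from F.y_cube)
    have hyne : yC ≠ 1 := fun h => F.y_ne (congrArg Subtype.val h)
    intro r hr
    by_cases hrM : r ∈ M
    · have hsimple : ((R.subgroupOf M).map (eQ.toMonoidHom.comp (QuotientGroup.mk' (N.subgroupOf M)))) = ⊥ := by
        refine ((Subgroup.Normal.map inferInstance _ (eQ.surjective.comp (QuotientGroup.mk'_surjective _)) :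
          ((R.subgroupOf M).map (eQ.toMonoidHom.comp (QuotientGroup.mk' (N.subgroupOf M)))).Normal)
          |>.eq_bot_or_eq_top).resolve_right fun htop => ?_
        have hp2 := (hRp.comap_of_injective M.subtype M.subtype_injective).map
          (eQ.toMonoidHom.comp (QuotientGroup.mk' (N.subgroupOf M)))
        rw [show R.comap M.subtype = R.subgroupOf M from rfl, htop] at hp2
        obtain ⟨k, hk⟩ := IsPGroup.iff_card.1 hp2
        rw [Subgroup.card_top, U43.card_G0] at hk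
        have h5 : 5 ∣ 2 ^ k := hk ▸ (by norm_num)
        exact absurd (Nat.prime_dvd_prime_iff_eq Nat.prime_five Nat.prime_two |>.1
          (Nat.Prime.dvd_of_dvd_pow Nat.prime_five h5)) (by norm_num)
      have hrN : r ∈ N := by
        have h := Subgroup.mem_map_of_mem (eQ.toMonoidHom.comp (QuotientGroup.mk' (N.subgroupOf M)))
          (show (⟨r, hrM⟩ : M) ∈ R.subgroupOf M from hr)
        rw [hsimple, Subgroup.mem_bot, MonoidHom.comp_apply, MulEquiv.coe_toMonoidHom, EmbeddingLike.map_eq_one_iff]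
          at h
        exact (QuotientGroup.eq_one_iff (⟨r, hrM⟩ : M)).1 h
      obtain ⟨q, hq, w, hw, he⟩ := mem_sup_pairs hD hprim ht
        ((hYO.trans (omegaPart_le hD hprim ht F)).trans (P_le hD hprim ht F)) (x := (r : G)) hrN
      have hwR : (⟨w, hOC (hYO hw)⟩ : C) ∈ R := by
        have h1 := mul_mem (inv_mem (hQR (show (⟨q, hQC hq⟩ : C) ∈ Q from hq))) hr
        convert h1 using 1
        exact Subtype.ext (show w = q⁻¹ * (r : G) by rw [he, inv_mul_cancel_left])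
      have hw1 : w = 1 := congrArg Subtype.val (hcube _ hwR (Subtype.ext (by
        obtain ⟨i, rfl⟩ := hw
        show (F.y ^ i) ^ 3 = 1
        rw [← zpow_natCast, ← zpow_mul, mul_comm, zpow_mul, zpow_natCast, F.y_cube, one_zpow])))
      show (r : G) ∈ Qg
      rw [he, hw1, mul_one]
      exact hq
    · exfalso
      refine hyne (hcube yC ?_ hy3)
      have hr' : r * yC * r⁻¹ * yC⁻¹ ∈ R := by
        rw [show r * yC * r⁻¹ * yC⁻¹ = r * (yC * r⁻¹ * yC⁻¹) by group]
        exact mul_mem hr (hRn.conj_mem _ (inv_mem hr) yC)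
      rcases hxy r (hmem.1 r.2).2 with ⟨q, hq, e⟩ | ⟨q, hq, e⟩
      · -- everything centralizes `y` modulo the pair group: impossible
        exfalso
        obtain ⟨s, hs⟩ := F.member
        have hrm : ∃ t : C, ∃ q' ∈ Qg, (t : G) * F.y * (t : G)⁻¹ = q' * F.y⁻¹ := by
          rcases Int.units_eq_one_or (ε F.m) with hm | hm
          · exact ⟨⟨F.m, hmem.2 ⟨hm, F.m_z⟩⟩, 1, one_mem _, by rw [one_mul]; exact F.m_y⟩
          · refine ⟨⟨F.m * s, hmem.2 ⟨by rw [map_mul, hm, hε _ hs]; rfl, F.m_z.mul_left (F.P_le _ s.2).1⟩⟩, 1,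
              one_mem _, ?_⟩
            rw [one_mul, show F.m * (s : G) * F.y * (F.m * (s : G))⁻¹ = F.m * ((s : G) * F.y * (s : G)⁻¹) * F.m⁻¹ by
              group, (F.P_le _ s.2).2.eq, mul_inv_cancel_right, F.m_y]
        obtain ⟨t, q', hq', et⟩ := hrm
        -- both `t` and `r` are outside `M`, so `r⁻¹ * t` lies in `M`
        have hM1 : ∀ x : C, x ∈ M → ∃ q₁ ∈ Qg, (x : G) * F.y * (x : G)⁻¹ = q₁ * F.y := by
          intro x hx
          obtain ⟨q₁, hq₁, p, hp, he⟩ := mem_sup_pairs hD hprim ht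
            ((omegaPart_le hD hprim ht F).trans (P_le hD hprim ht F)) (x := (x : G)) hx
          refine ⟨q₁ * F.y * q₁⁻¹ * F.y⁻¹, hconjq q₁ hq₁ _ hyz, ?_⟩
          rw [he, show q₁ * p * F.y * (q₁ * p)⁻¹ = q₁ * (p * F.y * p⁻¹) * q₁⁻¹ by group,
            (F.P_le p (omegaPart_le hD hprim ht F hp)).2.eq, mul_inv_cancel_right]
          group
        have hkey : ∀ q₁ q₂ : G, q₁ ∈ Qg → q₂ ∈ Qg → q₁ * F.y ≠ q₂ * F.y⁻¹ := fun q₁ q₂ h₁ h₂ h => F.y_ne (by
          refine eq_one_of_mem_zpowers_y hD hprim ht F ?_ (Subgroup.mem_zpowers _)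
          have h3 : F.y⁻¹ * F.y⁻¹ = F.y := by rw [← mul_inv_rev, ← y_inv hD hprim ht F, inv_inv]
          have : F.y = q₂⁻¹ * q₁ * 1 → F.y ∈ Qg := fun k => k ▸ mul_mem (mul_mem (inv_mem h₂) h₁) (one_mem _)
          refine this ?_
          calc F.y = F.y⁻¹ * F.y⁻¹ := h3.symm
            _ = q₂⁻¹ * (q₂ * F.y⁻¹) * F.y⁻¹ := by group
            _ = q₂⁻¹ * q₁ * 1 := by rw [← h]; group)
        have htM : t ∉ M := fun k => by
          obtain ⟨q₁, hq₁, e1⟩ := hM1 t k
          exact hkey q₁ q' hq₁ hq' (e1.symm.trans et)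
        have hrt : r * t ∈ M := (Subgroup.mul_mem_iff_of_index_two hMidx).2
          ⟨fun k => absurd k hrM, fun k => absurd k htM⟩
        obtain ⟨q₁, hq₁, e1⟩ := hM1 _ hrt
        have e2 : (r : G) * q' * (r : G)⁻¹ ∈ Qg := pairs_conj hD hprim ht (hmem.1 r.2).2 hq'
        refine hkey q₁ ((r : G) * q' * (r : G)⁻¹ * (F.y⁻¹ * q⁻¹ * F.y⁻¹⁻¹)) hq₁
          (mul_mem e2 (pairs_conj hD hprim ht hyz.inv_left (inv_mem hq))) ?_
        rw [← e1, Subgroup.coe_mul, show (r : G) * t * F.y * ((r : G) * t)⁻¹ = r * (t * F.y * (t : G)⁻¹) * (r : G)⁻¹ by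
          group, et, show (r : G) * (q' * F.y⁻¹) * (r : G)⁻¹ = r * q' * (r : G)⁻¹ * ((r : G) * F.y * (r : G)⁻¹)⁻¹ by
          group, e]
        group
      · -- the commutator with `y` gives `y` in the core
        have h1 := mul_mem (inv_mem (hQR (show (⟨q, hQC hq⟩ : C) ∈ Q from hq))) hr'
        convert h1 using 1
        refine Subtype.ext ?_
        show F.y = q⁻¹ * ((r : G) * F.y * (r : G)⁻¹ * F.y⁻¹)
        rw [e, show q⁻¹ * (q * F.y⁻¹ * F.y⁻¹) = F.y⁻¹ * F.y⁻¹ by group, ← mul_inv_rev, ← y_inv hD hprim ht F, inv_inv]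
  refine ⟨Q, hQn, genFitting_eq hQp hcent hcore, hext, hcQ, N, M, hNn, hMn, hQN, hNM, by rw [hcN, hcQ], ?_, hMidx⟩
  haveI := Fintype.ofFinite (GaloisField 3 2)
  obtain ⟨e0⟩ := U43.nonempty_psu (F := GaloisField 3 2) U43.card_nine
  exact ⟨GaloisField 3 2, inferInstance, inferInstance, U43.card_nine, ⟨eQ.trans e0⟩⟩

/-- The structure for the product of a given list, from the seven-dimensional data. -/
theorem centralizer_structure (hM : ∃ M : M24Seven.Data G D, M.Swap) (L : Subgroup G) (hL : L = commutator G)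
    (l : List G) (hl : l.Nodup ∧ l.length = 4 ∧ (∀ a ∈ l, a ∈ D) ∧ (∀ a ∈ l, ∀ b ∈ l, Commute a b) ∧ l.prod = z)
    (C : Subgroup G) (hC : C = L ⊓ Subgroup.centralizer ({z} : Set G)) : ∃ (Q : Subgroup ↥C) (_ : Q.Normal),
      Cfsg.generalizedFittingSubgroup ↥C = Q ∧ Cfsg.IsExtraspecial 2 ↥Q ∧ Nat.card Q = 2 ^ 13 ∧
      ∃ (N M : Subgroup ↥C) (_ : N.Normal) (_ : M.Normal), Q ≤ N ∧ N ≤ M ∧ Nat.card N = 3 * Nat.card Q ∧
        (∃ (K : Type) (_ : Field K) (_ : Fintype K), Fintype.card K = 9 ∧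
          Nonempty (↥M ⧸ N.subgroupOf M ≃* Cfsg.PSU 4 K 3)) ∧ M.index = 2 := by
  obtain ⟨hn, hlen, hlD, hlc, hlp⟩ := hl
  obtain ⟨M, hs⟩ := hM
  obtain ⟨z₀, ⟨F⟩⟩ := exists_frame M hD hprim ht hs
  obtain ⟨T, hT⟩ := F.four
  obtain ⟨g, hg⟩ := TypeTwentyFour.trans_le_five hD hprim ht (m := 4) (by norm_num) T.toList l T.nodup_toList hn
    (by rw [Finset.length_toList, hT.card]) hlen (fun a ha => hT.sub a (Finset.mem_toList.1 ha)) hlD
    (fun a ha b hb => hT.comm a (Finset.mem_toList.1 ha) b (Finset.mem_toList.1 hb)) hlc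
  have hz : g * z₀ * g⁻¹ = z := by
    rw [← hlp, ← hg, ← map_list_prod, show T.toList.prod = z₀ from hT.prod, MulAut.conj_apply]
  obtain ⟨F'⟩ := frame_map hD hprim ht F g
  rw [hz] at F'
  exact structure_of_frame hD hprim ht F' L hL C hC

end CfsgLib.Fischer.FourProduct
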