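import Cfsg.Agent.Lib.Fischer.MaxCommuting.OctadMembers
import Cfsg.Agent.Lib.Fischer.Parity.Triple
import Cfsg.Agent.Lib.ClassicalForms.Unitary.Simple

/-!
Groups of type M(24): an element of odd order centralizing a maximal commuting set of members is trivial.
-/

set_option autoImplicit false
set_option linter.unusedSectionVars false
set_option linter.style.haveILetI false

namespace CfsgLib.Fischer.FourProduct

open CfsgLib.Fischer CfsgLib.InvChar.FischerProducts CfsgLib.Fischer.MaxCommuting
open scoped Classical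

variable {G : Type*} [Group G] [Finite G] {D : Set G} {L : Finset G}
variable (hD : Cfsg.IsThreeTranspositionGroup D) (hprim : Cfsg.IsPrimitiveUnderConj D)
  (ht : Cfsg.IsOfTypeM24 G D) (hL : IsMax D (L : Set G))

include hD hprim ht hL

/-- An element of odd order centralizing `L` centralizes every member commuting with eight members of `L`. -/
theorem commute_octadMember {c : G} (ho : Odd (orderOf c)) (hc : ∀ a ∈ L, Commute c a) {O : Finset G}
    (hO : IsOctad L O) {x : G} (hx : x ∈ members D L O) : Commute c x := by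
  have hcfix : ∀ a ∈ L, c * a * c⁻¹ = a := fun a ha => by rw [(hc a ha).eq, mul_inv_cancel_right]
  have hy : c * x * c⁻¹ ∈ members D L O := by
    refine ⟨hD.2.1 c x hx.1, fun h => hx.2.1 ?_, ?_⟩
    · have := (MulAut.conj c).injective (a₁ := x) (a₂ := c * x * c⁻¹) (hcfix _ h).symm
      exact this ▸ h
    · rw [← hx.2.2]
      ext b
      refine and_congr_right fun hb => ?_
      have h := conj_commute_iff c x b
      rwa [hcfix b hb] at h
  obtain ⟨A, hA, hAx⟩ := exists_conj hD hprim ht hL hO hx hy
  have hcw : Commute c (word A) := commute_word fun a ha => hc a (hA ha)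
  have hww := word_sq hD hprim ht hL hA
  have h2 : Commute (c * c) x := by
    refine mul_inv_eq_iff_eq_mul.1 ?_
    calc c * c * x * (c * c)⁻¹ = c * (c * x * c⁻¹) * c⁻¹ := by group
      _ = c * word A * x * (word A)⁻¹ * c⁻¹ := by rw [hAx]; group
      _ = word A * (c * x * c⁻¹) * (word A)⁻¹ := by
          rw [hcw.eq, show word A * c * x * (word A)⁻¹ * c⁻¹ = word A * (c * x) * (c * word A)⁻¹ by group, hcw.eq]
          group
      _ = word A * word A * x * (word A * word A)⁻¹ := by rw [hAx]; group
      _ = x := by rw [hww]; group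
  obtain ⟨k, hk⟩ := ho
  have hck : (c * c) ^ (k + 1) = c := by
    rw [← pow_two, ← pow_mul, show 2 * (k + 1) = orderOf c + 1 by omega, pow_add, pow_orderOf_eq_one, one_mul, pow_one]
  exact hck ▸ h2.pow_left (k + 1)

/-- An element of odd order centralizing a maximal commuting set is trivial. -/
theorem eq_one_of_odd {c : G} (ho : Odd (orderOf c)) (hc : ∀ a ∈ L, Commute c a) : c = 1 := by
  obtain ⟨P, hP, hP4⟩ := Finset.exists_subset_card_eq (s := L) (n := 4)
    (by rw [card_eq_twentyFour hD hprim ht hL]; norm_num)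
  obtain ⟨a, b, e, w, hab, hae, haw, hbe, hbw, hew, rfl⟩ := Finset.card_eq_four.1 hP4
  have ha : a ∈ L := hP (by simp)
  have hb : b ∈ L := hP (by simp)
  have he : e ∈ L := hP (by simp)
  have hw : w ∈ L := hP (by simp)
  have hbp : b ∈ perp D a := ⟨hL.subset hb, Ne.symm hab, hL.comm a ha b hb⟩
  have hep : e ∈ perp D a ∩ perp D b :=
    ⟨⟨hL.subset he, Ne.symm hae, hL.comm a ha e he⟩, hL.subset he, Ne.symm hbe, hL.comm b hb e he⟩
  obtain ⟨hcen, -, F, iF, iF', hF, ⟨eK⟩⟩ := Parity.triple_structure hD hprim ht (hL.subset ha) hbp hep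
  set K := Subgroup.centralizer ({a, b, e} : Set G) with hK
  haveI : IsSimpleGroup (Cfsg.PSU 6 F 2) :=
    CfsgLib.ClassicalForms.isSimpleGroup_psu (q := 2) (by rw [hF]; norm_num) (by norm_num) (by norm_num)
  haveI : IsSimpleGroup (K ⧸ Subgroup.center K) := eK.isSimpleGroup
  have hcK : c ∈ K := (Parity.mem_triple hD hprim ht).2 ⟨hc a ha, hc b hb, hc e he⟩
  -- members in the centralizer commute with `c`
  let S : Set K := {m : K | (m : G) ∈ D}
  have hSc : ∀ m ∈ S, Commute c (m : G) := by
    intro m hm
    obtain ⟨h1, h2, h3⟩ := (Parity.mem_triple hD hprim ht).1 m.2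
    by_cases hmL : (m : G) ∈ L
    · exact hc _ hmL
    have h8 : (nb (L : Set G) (m : G)).ncard = 8 := by
      refine ((twentyFour hD hprim ht hL).2.1 _ hm hmL).resolve_left fun k => ?_
      have := Set.ncard_le_ncard (s := (({a, b, e} : Finset G) : Set G)) (t := nb (L : Set G) (m : G))
        (by simp [Set.insert_subset_iff, nb, ha, hb, he, h1, h2, h3]) (Set.toFinite _)
      rw [Set.ncard_coe_finset, k, Finset.card_eq_three.2 ⟨a, b, e, hab, hae, hbe, rfl⟩] at this
      omega
    obtain ⟨O, hO, hmO⟩ := exists_octad_of_eight hD hprim ht hL hm hmL h8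
    exact commute_octadMember hD hprim ht hL ho hc hO hmO
  haveI : (Subgroup.closure S).Normal := by
    refine ⟨fun n hn g => ?_⟩
    induction hn using Subgroup.closure_induction with
    | mem x hx => exact Subgroup.subset_closure (show (g : G) * (x : G) * (g : G)⁻¹ ∈ D from hD.2.1 _ _ hx)
    | one => rw [mul_one, mul_inv_cancel]; exact one_mem _
    | mul x y _ _ hx hy => rw [show g * (x * y) * g⁻¹ = g * x * g⁻¹ * (g * y * g⁻¹) by group]; exact mul_mem hx hy
    | inv x _ hx => rw [show g * x⁻¹ * g⁻¹ = (g * x * g⁻¹)⁻¹ by group]; exact inv_mem hx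
  have hJc : ∀ j ∈ Subgroup.closure S, Commute c (j : G) := by
    intro j hj
    induction hj using Subgroup.closure_induction with
    | mem x hx => exact hSc x hx
    | one => exact Commute.one_right c
    | mul x y _ _ hx hy => exact hx.mul_right hy
    | inv x _ hx => exact hx.inv_right
  have hV : ∀ v ∈ Subgroup.closure ({a, b, e} : Set G), ∃ A : Finset G, A ⊆ {a, b, e} ∧ v = word A := by
    intro v hv
    have habe : ({a, b, e} : Finset G) ⊆ L := by simp [Finset.insert_subset_iff, ha, hb, he]
    induction hv using Subgroup.closure_induction with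
    | mem x hx => exact ⟨{x}, by simpa using hx, (word_singleton x).symm⟩
    | one => exact ⟨∅, Finset.empty_subset _, word_empty.symm⟩
    | mul x y _ _ hx hy =>
      obtain ⟨A, hA, rfl⟩ := hx
      obtain ⟨B, hB, rfl⟩ := hy
      exact ⟨sd A B, sd_subset hA hB, (word_sd hD hprim ht hL (hA.trans habe) (hB.trans habe)).symm⟩
    | inv x _ hx =>
      obtain ⟨A, hA, rfl⟩ := hx
      exact ⟨A, hA, word_inv hD hprim ht hL (hA.trans habe)⟩
  have habe : ({a, b, e} : Finset G) ⊆ L := by simp [Finset.insert_subset_iff, ha, hb, he]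
  have hwK : w ∈ K := (Parity.mem_triple hD hprim ht).2 ⟨hL.comm w hw a ha, hL.comm w hw b hb, hL.comm w hw e he⟩
  have hne : (Subgroup.closure S).map (QuotientGroup.mk' (Subgroup.center K)) ≠ ⊥ := by
    intro h
    have hwc : (⟨w, hwK⟩ : K) ∈ Subgroup.center K := by
      rw [← QuotientGroup.eq_one_iff, ← Subgroup.mem_bot, ← h]
      exact Subgroup.mem_map_of_mem _ (Subgroup.subset_closure (show w ∈ D from hL.subset hw))
    obtain ⟨A, hA, hwA⟩ := hV w (hcen ▸ ⟨_, hwc, rfl⟩)
    have hwA' : ({w} : Finset G) ⊆ L := Finset.singleton_subset_iff.2 hw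
    refine word_ne_one hD hprim ht hL (sd_subset hwA' (hA.trans habe)) ?_ ?_
      (by rw [word_sd hD hprim ht hL hwA' (hA.trans habe), word_singleton, ← hwA, sq_eq_one hD.1 (hL.subset hw)])
    · refine ⟨w, Finset.mem_union_left _ (Finset.mem_sdiff.2 ⟨Finset.mem_singleton_self w, fun k => ?_⟩)⟩
      have := hA k
      simp only [Finset.mem_insert, Finset.mem_singleton] at this
      rcases this with k | k | k
      exacts [haw k.symm, hbw k.symm, hew k.symm]
    · have h1 := card_sd {w} A
      have h2 : A.card ≤ 3 := (Finset.card_le_card hA).trans Finset.card_le_three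
      rw [Finset.card_singleton] at h1
      omega
  have htop := ((Subgroup.Normal.map inferInstance _ (QuotientGroup.mk'_surjective _) :
    ((Subgroup.closure S).map (QuotientGroup.mk' (Subgroup.center K))).Normal).eq_bot_or_eq_top).resolve_left hne
  have hall : ∀ k : K, Commute c (k : G) := by
    intro k
    obtain ⟨j, hj, hjk⟩ : QuotientGroup.mk' (Subgroup.center K) k ∈
        (Subgroup.closure S).map (QuotientGroup.mk' (Subgroup.center K)) := htop ▸ Subgroup.mem_top _
    have hz : j⁻¹ * k ∈ Subgroup.center K := QuotientGroup.eq.1 hjk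
    have h1 : Commute c ((j⁻¹ * k : K) : G) :=
      congrArg Subtype.val (Subgroup.mem_center_iff.1 hz ⟨c, hcK⟩)
    have h2 := (hJc j hj).mul_right h1
    rwa [Subgroup.coe_mul, Subgroup.coe_inv, mul_inv_cancel_left] at h2
  obtain ⟨A, hA, hcA⟩ := hV c (hcen ▸ ⟨⟨c, hcK⟩, Subgroup.mem_center_iff.2 fun k => Subtype.ext (hall k).eq.symm, rfl⟩)
  have h2 : c ^ 2 = 1 := by rw [pow_two, hcA, word_sq hD hprim ht hL (hA.trans habe)]
  obtain ⟨k, hk⟩ := ho
  have := pow_orderOf_eq_one c
  rwa [hk, pow_add, pow_mul, h2, one_pow, one_mul, pow_one] at this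

end CfsgLib.Fischer.FourProduct
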