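import Cfsg.Agent.Lib.Fischer.FourProduct.Tetrads

/-!
Three tetrads inside one maximal commuting set: the pair group has order at least `2 ^ 13`, and when equality
holds only the product and the identity centralize all members of tetrads.
-/

set_option autoImplicit false
set_option linter.unusedSectionVars false

namespace CfsgLib.Fischer.FourProduct

open CfsgLib.Fischer CfsgLib.InvChar.FischerProducts CfsgLib.Fischer.MaxCommuting
open scoped Classical

variable {G : Type*} [Group G] [Finite G] {D : Set G} {z : G}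

/-- Three tetrads in a maximal commuting set, pairwise completing to octads. -/
structure Sextet (D : Set G) (z : G) (L : Finset G) (T : Fin 3 → Finset G) : Prop where
  tet : ∀ i, IsTetrad D z (T i)
  sub : ∀ i, T i ⊆ L
  disj : ∀ i j, i ≠ j → Disjoint (T i) (T j)
  octad : ∀ i j, i ≠ j → IsOctad L (T i ∪ T j)

/-- The members of `T` from which the even subsets are made. -/
noncomputable def evens (T : Finset G) (a : G) : Finset (Finset G) :=
  insert ∅ ((T.erase a).image fun b => {a, b})

theorem three_cases : ∀ i : Fin 3, i = 0 ∨ i = 1 ∨ i = 2 := by decide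

variable (hD : Cfsg.IsThreeTranspositionGroup D) (hprim : Cfsg.IsPrimitiveUnderConj D)
  (ht : Cfsg.IsOfTypeM24 G D)

omit [Finite G] in
theorem card_evens {T : Finset G} (hT : T.card = 4) {a : G} (ha : a ∈ T) : (evens T a).card = 4 := by
  rw [evens, Finset.card_insert_of_notMem, Finset.card_image_of_injOn, Finset.card_erase_of_mem ha, hT]
  · intro b hb c hc h
    have h1 : b ∈ ({a, c} : Finset G) := by rw [← show ({a, b} : Finset G) = {a, c} from h]; simp
    simp only [Finset.mem_insert, Finset.mem_singleton] at h1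
    exact h1.resolve_left (Finset.ne_of_mem_erase hb)
  · intro h
    obtain ⟨b, -, hb⟩ := Finset.mem_image.1 h
    exact absurd (congrArg Finset.Nonempty hb) (by simp)

omit [Finite G] in
theorem evens_sub {T : Finset G} {a : G} (ha : a ∈ T) {A : Finset G} (hA : A ∈ evens T a) :
    A ⊆ T ∧ (A = ∅ ∨ ∃ b, b ≠ a ∧ b ∈ T ∧ A = {a, b}) := by
  simp only [evens, Finset.mem_insert, Finset.mem_image, Finset.mem_erase] at hA
  rcases hA with rfl | ⟨b, ⟨hb, hbT⟩, rfl⟩
  · exact ⟨Finset.empty_subset _, Or.inl rfl⟩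
  · exact ⟨Finset.insert_subset ha (Finset.singleton_subset_iff.2 hbT), Or.inr ⟨b, hb, hbT, rfl⟩⟩

theorem card_sd_evens {T : Finset G} {a : G} (ha : a ∈ T) {A B : Finset G} (hA : A ∈ evens T a)
    (hB : B ∈ evens T a) : (sd A B).card ≤ 2 := by
  have hc := card_sd A B
  obtain ⟨-, hA⟩ := evens_sub ha hA
  obtain ⟨-, hB⟩ := evens_sub ha hB
  rcases hA with rfl | ⟨b, -, -, rfl⟩ <;> rcases hB with rfl | ⟨c, -, -, rfl⟩
  · rw [Finset.card_empty] at hc; omega
  · have := Finset.card_le_two (a := a) (b := c); simp at hc; omega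
  · have := Finset.card_le_two (a := a) (b := b); simp at hc; omega
  · have := Finset.card_le_two (a := a) (b := c)
    have := Finset.card_le_two (a := a) (b := b)
    have : 1 ≤ ({a, b} ∩ {a, c} : Finset G).card := Finset.card_pos.2 ⟨a, by simp⟩
    omega

include hD hprim ht

theorem exists_sextet {T₀ : Finset G} (hT₀ : IsTetrad D z T₀) :
    ∃ L : Finset G, IsMax D (L : Set G) ∧ ∃ T, Sextet D z L T := by
  obtain ⟨L, hL, hTL⟩ := exists_max hD hprim ht T₀ hT₀.sub hT₀.comm
  have h24 := card_eq_twentyFour hD hprim ht hL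
  obtain ⟨x, hxL, hxT⟩ := Finset.exists_mem_notMem_of_card_lt_card
    (show T₀.card < L.card by rw [hT₀.card, h24]; norm_num)
  obtain ⟨T₁, hT₁, hx₁, h1L, h01, ho01⟩ := exists_tetrad_in hD hprim ht hL hT₀ hTL hxL hxT
  obtain ⟨y, hyL, hy⟩ := Finset.exists_mem_notMem_of_card_lt_card
    (show (T₀ ∪ T₁).card < L.card by rw [ho01.2.1, h24]; norm_num)
  rw [Finset.mem_union, not_or] at hy
  obtain ⟨T₂, hT₂, hy₂, h2L, h02, ho02⟩ := exists_tetrad_in hD hprim ht hL hT₀ hTL hyL hy.1
  have h12 : Disjoint T₁ T₂ := Finset.disjoint_left.2 fun u h1 h2 =>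
    hy.2 ((eq_of_mem hD hprim ht hT₁ hT₂ h1 h2).symm ▸ hy₂)
  have ho12 : IsOctad L (T₁ ∪ T₂) := ⟨Finset.union_subset h1L h2L,
    by rw [Finset.card_union_of_disjoint h12, hT₁.card, hT₂.card],
    by rw [word_union hD hprim ht hL h1L h2L h12, hT₁.prod, hT₂.prod, z_sq hD hprim ht hT₀]⟩
  refine ⟨L, hL, ![T₀, T₁, T₂], fun i => ?_, fun i => ?_, fun i j hij => ?_, fun i j hij => ?_⟩
  · fin_cases i <;> assumption
  · fin_cases i <;> assumption
  · fin_cases i <;> fin_cases j <;> first
      | exact absurd rfl hij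
      | assumption
      | exact Disjoint.symm (by assumption)
  · fin_cases i <;> fin_cases j <;> first
      | exact absurd rfl hij
      | assumption
      | (show IsOctad L (_ ∪ _); rw [Finset.union_comm]; assumption)

variable {L : Finset G} {T : Fin 3 → Finset G} (hL : IsMax D (L : Set G)) (hS : Sextet D z L T)

include hL hS

/-- A member moving exactly one of the three tetrads. -/
theorem exists_mover (i : Fin 3) : ∃ T', IsTetrad D z T' ∧ ∀ x ∈ T',
    (∀ a ∈ T i, ¬ Commute x a) ∧ ∀ j, j ≠ i → ∀ a ∈ T j, Commute x a := by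
  obtain ⟨j, k, hji, hki, hjk, hall⟩ : ∃ j k : Fin 3, j ≠ i ∧ k ≠ i ∧ j ≠ k ∧ ∀ l, l ≠ i → l = j ∨ l = k := by
    fin_cases i <;> decide
  have hO := hS.octad j k hjk
  obtain ⟨x, hx⟩ := members_nonempty hD hprim ht hL hO
  obtain ⟨a, ha⟩ : (T j).Nonempty := Finset.card_pos.1 (by rw [(hS.tet j).card]; norm_num)
  have hxj : ∀ b ∈ T j, Commute x b := fun b hb =>
    (commute_iff_mem hx (hS.sub j hb)).2 (Finset.mem_union_left _ hb)
  have hxz : Commute x z := (hS.tet j).prod ▸ commute_word hxj
  obtain ⟨T', hT', hxT'⟩ := exists_tetrad hD hprim ht (hS.tet j) hx.1 hxz ha (hxj a ha)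
  refine ⟨T', hT', fun y hy => ⟨fun b hb hyb => ?_, fun l hl b hb => ?_⟩⟩
  · have h := (commute_iff_mem hx (hS.sub i hb)).1 (cross hD hprim ht hT' (hS.tet i) hy hb hyb hxT' hb)
    rcases Finset.mem_union.1 h with h | h
    · exact Finset.disjoint_left.1 (hS.disj j i hji) h hb
    · exact Finset.disjoint_left.1 (hS.disj k i hki) h hb
  · refine cross hD hprim ht hT' (hS.tet l) hxT' hb ?_ hy hb
    refine (commute_iff_mem hx (hS.sub l hb)).2 ?_
    rcases hall l hl with rfl | rfl
    exacts [Finset.mem_union_left _ hb, Finset.mem_union_right _ hb]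

/-- Four elements of the pair group moving exactly one of the three tetrads, differently. -/
theorem exists_moves (i : Fin 3) : ∃ S : Finset G, S.card = 4 ∧ (∀ q ∈ S, q ∈ pairs D z) ∧
    (∀ q ∈ S, ∀ j, j ≠ i → ∀ a ∈ T j, Commute q a) ∧
    ∀ q ∈ S, ∀ q' ∈ S, ∀ a ∈ T i, q * a * q⁻¹ = q' * a * q'⁻¹ → q = q' := by
  obtain ⟨T', hT', hmove⟩ := exists_mover hD hprim ht hL hS i
  obtain ⟨x, hx⟩ : T'.Nonempty := Finset.card_pos.1 (by rw [hT'.card]; norm_num)
  refine ⟨T'.image (x * ·), ?_, fun q hq => ?_, fun q hq j hj a ha => ?_, fun q hq q' hq' a ha h => ?_⟩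
  · rw [Finset.card_image_of_injective _ (mul_right_injective x), hT'.card]
  · obtain ⟨y, hy, rfl⟩ := Finset.mem_image.1 hq
    exact Subgroup.subset_closure ⟨T', hT', x, hx, y, hy, rfl⟩
  · obtain ⟨y, hy, rfl⟩ := Finset.mem_image.1 hq
    exact ((hmove x hx).2 j hj a ha).mul_left ((hmove y hy).2 j hj a ha)
  · obtain ⟨y, hy, rfl⟩ := Finset.mem_image.1 hq
    obtain ⟨y', hy', rfl⟩ := Finset.mem_image.1 hq'
    by_contra hne
    have hyy : y' ≠ y := fun k => hne (by rw [k])
    refine pair_moves hD hprim ht hT' (hS.tet i) hy' hy hyy ha ((hmove y' hy').1 a ha) ?_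
    have e : y' * y = (x * y')⁻¹ * (x * y) := by
      rw [mul_inv_rev, inv_eq hD.1 (hT'.sub y' hy'), show y' * x⁻¹ * (x * y) = y' * y by group]
    rw [e, show (x * y')⁻¹ * (x * y) * a * ((x * y')⁻¹ * (x * y))⁻¹ =
      (x * y')⁻¹ * (x * y * a * (x * y)⁻¹) * (x * y') by group]
    rw [show x * y * a * (x * y)⁻¹ = x * y' * a * (x * y')⁻¹ from h]
    group

/-- The elements made from the product and pairs in the three tetrads. -/
theorem exists_fixers : ∃ E : Finset G, E.card = 128 ∧ (∀ e ∈ E, e ∈ pairs D z ∧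
    ∀ j, ∀ a ∈ T j, Commute e a) ∧
    ∀ e ∈ E, (∀ T', IsTetrad D z T' → ∀ a ∈ T', Commute e a) → e = 1 ∨ e = z := by
  have hne : ∀ i, (T i).Nonempty := fun i => Finset.card_pos.1 (by rw [(hS.tet i).card]; norm_num)
  choose a ha using hne
  have hzL : Commute z z := Commute.refl z
  let sets : Fin 3 → Finset (Finset G) := fun i => evens (T i) (a i)
  let f : Bool × Finset G × Finset G × Finset G → G := fun p =>
    (bif p.1 then z else 1) * (word p.2.1 * word p.2.2.1 * word p.2.2.2)
  let dom := (Finset.univ : Finset Bool) ×ˢ (sets 0 ×ˢ (sets 1 ×ˢ sets 2))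
  have hsub : ∀ i, ∀ A ∈ sets i, A ⊆ L := fun i A hA => (evens_sub (ha i) hA).1.trans (hS.sub i)
  have hz1 := z_ne_one hD hprim ht (hS.tet 0)
  have hzz := z_sq hD hprim ht (hS.tet 0)
  -- a product of even parts which is one or the product is trivial
  have key : ∀ X : Fin 3 → Finset G, (∀ i, X i ⊆ T i) → (∀ i, (X i).card ≤ 2) →
      (word (X 0) * word (X 1) * word (X 2) = 1 ∨ word (X 0) * word (X 1) * word (X 2) = z) →
      (∀ i, X i = ∅) ∧ word (X 0) * word (X 1) * word (X 2) = 1 := by
    intro X hX hX2 hor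
    have hXL : ∀ i, X i ⊆ L := fun i => (hX i).trans (hS.sub i)
    have h01 : Disjoint (X 0) (X 1) := (hS.disj 0 1 (by decide)).mono (hX 0) (hX 1)
    have h2 : Disjoint (X 0 ∪ X 1) (X 2) := Finset.disjoint_union_left.2
      ⟨(hS.disj 0 2 (by decide)).mono (hX 0) (hX 2), (hS.disj 1 2 (by decide)).mono (hX 1) (hX 2)⟩
    set U := X 0 ∪ X 1 ∪ X 2 with hU
    have hUL : U ⊆ L := Finset.union_subset (Finset.union_subset (hXL 0) (hXL 1)) (hXL 2)
    have hUw : word U = word (X 0) * word (X 1) * word (X 2) := by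
      rw [hU, word_union hD hprim ht hL (Finset.union_subset (hXL 0) (hXL 1)) (hXL 2) h2,
        word_union hD hprim ht hL (hXL 0) (hXL 1) h01]
    rw [← hUw] at hor ⊢
    have hUc : U.card = (X 0).card + (X 1).card + (X 2).card := by
      rw [hU, Finset.card_union_of_disjoint h2, Finset.card_union_of_disjoint h01]
    have hU6 : U.card ≤ 6 := by have := hX2 0; have := hX2 1; have := hX2 2; omega
    have hUempty : U = ∅ → (∀ i, X i = ∅) ∧ word U = 1 := fun h => by
      refine ⟨fun i => Finset.card_eq_zero.1 ?_, by rw [h, word_empty]⟩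
      rw [h, Finset.card_empty] at hUc
      rcases three_cases i with rfl | rfl | rfl <;> omega
    rcases hor with h | h
    · exact hUempty (Finset.not_nonempty_iff_eq_empty.1 fun k => word_ne_one hD hprim ht hL hUL k (by omega) h)
    refine hUempty (Finset.not_nonempty_iff_eq_empty.1 fun ⟨u, hu⟩ => ?_)
    obtain ⟨i, hui⟩ : ∃ i, u ∈ X i := by
      simp only [hU, Finset.mem_union] at hu
      rcases hu with (h | h) | h <;> exact ⟨_, h⟩
    have hc := card_sd U (T i)
    have hI : X i ⊆ U ∩ T i := Finset.subset_inter (by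
      rw [hU]; rcases three_cases i with rfl | rfl | rfl <;> intro v hv <;> simp [hv]) (hX i)
    have hUi : U.card ≤ (X i).card + 4 := by
      have := hX2 0; have := hX2 1; have := hX2 2
      rcases three_cases i with rfl | rfl | rfl <;> omega
    have hI' := Finset.card_le_card hI
    rw [(hS.tet i).card] at hc
    refine word_ne_one hD hprim ht hL (sd_subset hUL (hS.sub i)) ?_ (A := sd U (T i)) ?_
      (by rw [word_sd hD hprim ht hL hUL (hS.sub i), h, (hS.tet i).prod, hzz])
    · rw [Finset.nonempty_iff_ne_empty]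
      intro k
      have := eq_of_sd_eq_empty k
      have h3 : X i = T i := by
        refine (hX i).antisymm fun v hv => ?_
        have hvU : v ∈ U := this ▸ hv
        simp only [hU, Finset.mem_union] at hvU
        rcases hvU with (h' | h') | h' <;>
          (rcases three_cases i with rfl | rfl | rfl <;> first
            | exact h'
            | exact absurd hv (Finset.disjoint_left.1 (hS.disj _ _ (by decide)) (hX _ h')))
      have := hX2 i
      rw [h3, (hS.tet i).card] at this
      omega
    · have : 1 ≤ (X i).card := Finset.card_pos.2 ⟨u, hui⟩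
      omega
  have hinj : Set.InjOn f dom := by
    rintro ⟨k, A, B, C⟩ hp ⟨k', A', B', C'⟩ hp' h
    simp only [dom, Finset.coe_product, Set.mem_prod, Finset.mem_coe] at hp hp'
    obtain ⟨-, hA, hB, hC⟩ := hp
    obtain ⟨-, hA', hB', hC'⟩ := hp'
    have lA := hsub 0 A hA; have lA' := hsub 0 A' hA'
    have lB := hsub 1 B hB; have lB' := hsub 1 B' hB'
    have lC := hsub 2 C hC; have lC' := hsub 2 C' hC'
    have hval : word (sd A A') * word (sd B B') * word (sd C C') =
        (bif k then z else 1)⁻¹ * (bif k' then z else 1) := by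
      rw [word_sd hD hprim ht hL lA lA', word_sd hD hprim ht hL lB lB', word_sd hD hprim ht hL lC lC']
      have c1 := word_commute hD hprim ht hL lA' lB
      have c2 := word_commute hD hprim ht hL lA' lC
      have c3 := word_commute hD hprim ht hL lB' lC
      have h' : (bif k then z else 1)⁻¹ * (bif k' then z else 1) * (word A' * word B' * word C') =
          word A * word B * word C := by
        have h0 : (bif k then z else 1) * (word A * word B * word C) =
            (bif k' then z else 1) * (word A' * word B' * word C') := h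
        rw [mul_assoc, ← h0, inv_mul_cancel_left]
      calc word A * word A' * (word B * word B') * (word C * word C')
          = word A * (word A' * word B) * word B' * word C * word C' := by group
        _ = word A * word B * (word A' * (word B' * word C)) * word C' := by rw [c1.eq]; group
        _ = word A * word B * ((word A' * word C) * word B') * word C' := by rw [c3.eq]; group
        _ = word A * word B * word C * (word A' * word B' * word C') := by rw [c2.eq]; group
        _ = (bif k then z else 1)⁻¹ * (bif k' then z else 1) *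
            ((word A' * word B' * word C') * (word A' * word B' * word C')) := by rw [← h']; group
        _ = _ := by
          have hABC : word A' * word B' * word C' * (word A' * word B' * word C') = 1 := by
            have u1 : Disjoint A' B' := (hS.disj 0 1 (by decide)).mono (evens_sub (ha 0) hA').1 (evens_sub (ha 1) hB').1
            have u2 : Disjoint (A' ∪ B') C' := Finset.disjoint_union_left.2
              ⟨(hS.disj 0 2 (by decide)).mono (evens_sub (ha 0) hA').1 (evens_sub (ha 2) hC').1,
              (hS.disj 1 2 (by decide)).mono (evens_sub (ha 1) hB').1 (evens_sub (ha 2) hC').1⟩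
            rw [← word_union hD hprim ht hL lA' lB' u1, ← word_union hD hprim ht hL (Finset.union_subset lA' lB') lC' u2]
            exact word_sq hD hprim ht hL (Finset.union_subset (Finset.union_subset lA' lB') lC')
          rw [hABC, mul_one]
    have hor : word (sd A A') * word (sd B B') * word (sd C C') = 1 ∨
        word (sd A A') * word (sd B B') * word (sd C C') = z := by
      rw [hval]
      cases k <;> cases k' <;> simp [z_inv hD hprim ht (hS.tet 0), hzz]
    obtain ⟨he, h1⟩ := key ![sd A A', sd B B', sd C C'] (fun i => by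
      fin_cases i
      exacts [sd_subset (evens_sub (ha 0) hA).1 (evens_sub (ha 0) hA').1,
        sd_subset (evens_sub (ha 1) hB).1 (evens_sub (ha 1) hB').1,
        sd_subset (evens_sub (ha 2) hC).1 (evens_sub (ha 2) hC').1]) (fun i => by
      fin_cases i
      exacts [card_sd_evens (ha 0) hA hA', card_sd_evens (ha 1) hB hB', card_sd_evens (ha 2) hC hC']) hor
    have e1 : A = A' := eq_of_sd_eq_empty (he 0)
    have e2 : B = B' := eq_of_sd_eq_empty (he 1)
    have e3 : C = C' := eq_of_sd_eq_empty (he 2)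
    have e4 : k = k' := by
      rw [show word (![sd A A', sd B B', sd C C'] 0) * word (![sd A A', sd B B', sd C C'] 1) *
        word (![sd A A', sd B B', sd C C'] 2) = word (sd A A') * word (sd B B') * word (sd C C') from rfl, hval] at h1
      cases k <;> cases k' <;> simp [z_inv hD hprim ht (hS.tet 0), hz1] at h1 ⊢
    rw [e1, e2, e3, e4]
  have hfix : ∀ i, ∀ A ∈ sets i, word A ∈ pairs D z ∧ ∀ j, ∀ b ∈ T j, Commute (word A) b := by
    intro i A hA
    refine ⟨?_, fun j b hb => (commute_word fun c hc => hL.comm b (hS.sub j hb) c (hsub i A hA hc)).symm⟩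
    rcases (evens_sub (ha i) hA).2 with rfl | ⟨b, hb, hbT, rfl⟩
    · rw [word_empty]; exact one_mem _
    · have hw : word ({a i, b} : Finset G) = a i * b := by
        rw [show ({a i, b} : Finset G) = [a i, b].toFinset by simp, word_toFinset (by simp [Ne.symm hb])
          (by simp [(hS.tet i).comm _ (ha i) b hbT, ((hS.tet i).comm _ (ha i) b hbT).symm])]
        simp
      rw [hw]
      exact Subgroup.subset_closure ⟨T i, hS.tet i, a i, ha i, b, hbT, rfl⟩
  have hzfix : ∀ k : Bool, (bif k then z else 1) ∈ pairs D z ∧ ∀ j, ∀ b ∈ T j, Commute (bif k then z else 1) b := by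
    intro k
    cases k
    · exact ⟨one_mem _, fun _ _ _ => Commute.one_left _⟩
    · exact ⟨z_mem_pairs hD hprim ht (hS.tet 0), fun j b hb => ((hS.tet j).commute_z hb).symm⟩
  refine ⟨dom.image f, ?_, fun e he => ?_, fun e he hcen => ?_⟩
  · rw [Finset.card_image_of_injOn hinj, Finset.card_product, Finset.card_product, Finset.card_product,
      Finset.card_univ, Fintype.card_bool]
    simp only [sets, card_evens (hS.tet _).card (ha _)]
  · obtain ⟨⟨k, A, B, C⟩, hp, rfl⟩ := Finset.mem_image.1 he
    simp only [dom, Finset.mem_product] at hp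
    obtain ⟨-, hA, hB, hC⟩ := hp
    refine ⟨mul_mem (hzfix k).1 (mul_mem (mul_mem (hfix 0 A hA).1 (hfix 1 B hB).1) (hfix 2 C hC).1),
      fun j b hb => ?_⟩
    exact ((hzfix k).2 j b hb).mul_left
      ((((hfix 0 A hA).2 j b hb).mul_left ((hfix 1 B hB).2 j b hb)).mul_left ((hfix 2 C hC).2 j b hb))
  · obtain ⟨⟨k, A, B, C⟩, hp, rfl⟩ := Finset.mem_image.1 he
    simp only [dom, Finset.mem_product] at hp
    obtain ⟨-, hA, hB, hC⟩ := hp
    suffices h : A = ∅ ∧ B = ∅ ∧ C = ∅ by
      obtain ⟨rfl, rfl, rfl⟩ := h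
      cases k <;> simp [f, word_empty]
    -- a mover of one part commutes with the other two
    let X : Fin 3 → Finset G := ![A, B, C]
    have hX : ∀ i, X i ∈ sets i := fun i => by fin_cases i <;> assumption
    have hall : ∀ i, X i = ∅ := by
      intro i
      obtain ⟨T', hT', hmove⟩ := exists_mover hD hprim ht hL hS i
      obtain ⟨x, hx⟩ : T'.Nonempty := Finset.card_pos.1 (by rw [hT'.card]; norm_num)
      have hxe : Commute x (f (k, A, B, C)) := (hcen T' hT' x hx).symm
      have hxz : Commute x (bif k then z else 1) := by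
        cases k
        · exact Commute.one_right x
        · exact hT'.commute_z hx
      have hxw : Commute x (word A * word B * word C) := by
        have h1 := hxz.inv_right.mul_right hxe
        rwa [show f (k, A, B, C) = (bif k then z else 1) * (word A * word B * word C) from rfl,
          inv_mul_cancel_left] at h1
      have hj : ∀ j, j ≠ i → Commute x (word (X j)) := fun j hj => commute_word fun b hb =>
        (hmove x hx).2 j hj b ((evens_sub (ha j) (hX j)).1 hb)
      have hi : Commute x (word (X i)) := by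
        fin_cases i
        · have h1 := hxw.mul_right (hj 2 (by decide)).inv_right
          have h2 := h1.mul_right (hj 1 (by decide)).inv_right
          simpa [X] using h2
        · have h1 := hxw.mul_right (hj 2 (by decide)).inv_right
          have h2 := (hj 0 (by decide)).inv_right.mul_right h1
          simpa [X, mul_assoc] using h2
        · have h1 := ((hj 0 (by decide)).mul_right (hj 1 (by decide))).inv_right.mul_right hxw
          simpa [X, mul_assoc] using h1
      rw [← Finset.not_nonempty_iff_eq_empty]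
      rintro ⟨b, hb⟩
      have h3 : (X i).card ≤ 3 := by
        rcases (evens_sub (ha i) (hX i)).2 with h | ⟨c, -, -, h⟩ <;> rw [h]
        · simp
        · exact le_trans Finset.card_le_two (by norm_num)
      exact (hmove x hx).1 b ((evens_sub (ha i) (hX i)).1 hb)
        (commute_short hD hprim ht hL (hsub i _ (hX i)) h3 (hT'.sub x hx) hi b hb)
    exact ⟨hall 0, hall 1, hall 2⟩

/-- The bound, and the centre in the case of equality. -/
theorem card_pairs_ge : 2 ^ 13 ≤ Nat.card (pairs D z) ∧
    (Nat.card (pairs D z) = 2 ^ 13 → ∀ w ∈ pairs D z,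
      (∀ T', IsTetrad D z T' → ∀ a ∈ T', Commute w a) → w = 1 ∨ w = z) := by
  choose S hScard hSmem hSother hSinj using exists_moves hD hprim ht hL hS
  obtain ⟨E, hEcard, hE, hEcen⟩ := exists_fixers hD hprim ht hL hS
  have hne : ∀ i, (T i).Nonempty := fun i => Finset.card_pos.1 (by rw [(hS.tet i).card]; norm_num)
  choose a ha using hne
  let Z : Finset G := (Set.toFinite {w : G | w ∈ pairs D z ∧ ∀ j, ∀ b ∈ T j, Commute w b}).toFinset
  have hmemZ : ∀ w, w ∈ Z ↔ w ∈ pairs D z ∧ ∀ j, ∀ b ∈ T j, Commute w b := fun w =>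
    Set.Finite.mem_toFinset _
  have hEZ : E ⊆ Z := fun e he => (hmemZ e).2 (hE e he)
  let dom := S 0 ×ˢ (S 1 ×ˢ (S 2 ×ˢ Z))
  let F : G × G × G × G → G := fun p => p.1 * p.2.1 * p.2.2.1 * p.2.2.2
  have hinj : Set.InjOn F dom := by
    rintro ⟨q0, q1, q2, e⟩ hp ⟨r0, r1, r2, e'⟩ hp' h
    simp only [dom, Finset.coe_product, Set.mem_prod, Finset.mem_coe, hmemZ] at hp hp'
    obtain ⟨h0, h1, h2, -, he⟩ := hp
    obtain ⟨k0, k1, k2, -, he'⟩ := hp'
    have act : ∀ (p0 p1 p2 u : G), p0 ∈ S 0 → p1 ∈ S 1 → p2 ∈ S 2 → (∀ j, ∀ b ∈ T j, Commute u b) →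
        ∀ i : Fin 3, (p0 * p1 * p2 * u) * a i * (p0 * p1 * p2 * u)⁻¹ =
          (![p0, p1, p2] i) * a i * (![p0, p1, p2] i)⁻¹ := by
      intro p0 p1 p2 u m0 m1 m2 hu i
      have t0 : ∀ (p x b : G), Commute x b → p * x * b * (p * x)⁻¹ = p * b * p⁻¹ := fun p x b k => by
        rw [mul_assoc p x b, k.eq]; group
      have hmem : ∀ j, j ≠ 2 → p2 * a j * p2⁻¹ = a j := fun j hj => by
        rw [(hSother 2 p2 m2 j hj (a j) (ha j)).eq, mul_inv_cancel_right]
      have hmem1 : ∀ j, j ≠ 1 → p1 * a j * p1⁻¹ = a j := fun j hj => by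
        rw [(hSother 1 p1 m1 j hj (a j) (ha j)).eq, mul_inv_cancel_right]
      rw [t0 _ u _ (hu i (a i) (ha i))]
      fin_cases i
      · show p0 * p1 * p2 * a 0 * (p0 * p1 * p2)⁻¹ = p0 * a 0 * p0⁻¹
        rw [t0 _ p2 _ (hSother 2 p2 m2 0 (by decide) _ (ha 0)), t0 _ p1 _ (hSother 1 p1 m1 0 (by decide) _ (ha 0))]
      · show p0 * p1 * p2 * a 1 * (p0 * p1 * p2)⁻¹ = p1 * a 1 * p1⁻¹
        rw [t0 _ p2 _ (hSother 2 p2 m2 1 (by decide) _ (ha 1))]
        have hm := keeps_mem hD hprim ht (hSmem 1 p1 m1) (hS.tet 1) (ha 1)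
        rw [show p0 * p1 * a 1 * (p0 * p1)⁻¹ = p0 * (p1 * a 1 * p1⁻¹) * p0⁻¹ by group,
          (hSother 0 p0 m0 1 (by decide) _ hm).eq, mul_inv_cancel_right]
      · show p0 * p1 * p2 * a 2 * (p0 * p1 * p2)⁻¹ = p2 * a 2 * p2⁻¹
        have hm := keeps_mem hD hprim ht (hSmem 2 p2 m2) (hS.tet 2) (ha 2)
        rw [show p0 * p1 * p2 * a 2 * (p0 * p1 * p2)⁻¹ = p0 * p1 * (p2 * a 2 * p2⁻¹) * (p0 * p1)⁻¹ by group,
          ((hSother 0 p0 m0 2 (by decide) _ hm).mul_left (hSother 1 p1 m1 2 (by decide) _ hm)).eq,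
          mul_inv_cancel_right]
    have hh : q0 * q1 * q2 * e = r0 * r1 * r2 * e' := h
    have eq : ∀ i, ![q0, q1, q2] i * a i * (![q0, q1, q2] i)⁻¹ = ![r0, r1, r2] i * a i * (![r0, r1, r2] i)⁻¹ :=
      fun i => by rw [← act q0 q1 q2 e h0 h1 h2 he i, ← act r0 r1 r2 e' k0 k1 k2 he' i, hh]
    have e0 : q0 = r0 := hSinj 0 q0 h0 r0 k0 (a 0) (ha 0) (eq 0)
    have e1 : q1 = r1 := hSinj 1 q1 h1 r1 k1 (a 1) (ha 1) (eq 1)
    have e2 : q2 = r2 := hSinj 2 q2 h2 r2 k2 (a 2) (ha 2) (eq 2)
    subst e0 e1 e2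
    rw [mul_left_cancel hh]
  have hle : dom.card ≤ Nat.card (pairs D z) := by
    rw [← Finset.card_image_of_injOn hinj, ← Set.ncard_coe_finset, ← Nat.card_coe_set_eq]
    refine Nat.card_mono (Set.toFinite _) ?_
    intro g hg
    obtain ⟨⟨q0, q1, q2, e⟩, hp, rfl⟩ := Finset.mem_image.1 hg
    simp only [dom, Finset.mem_product, hmemZ] at hp
    exact mul_mem (mul_mem (mul_mem (hSmem 0 _ hp.1) (hSmem 1 _ hp.2.1)) (hSmem 2 _ hp.2.2.1)) hp.2.2.2.1
  have hdom : dom.card = 64 * Z.card := by
    simp only [dom, Finset.card_product, hScard]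
    ring
  have hZ := Finset.card_le_card hEZ
  rw [hEcard] at hZ
  refine ⟨by omega, fun heq w hw hcen => ?_⟩
  have hwZ : w ∈ Z := (hmemZ w).2 ⟨hw, fun j b hb => hcen _ (hS.tet j) b hb⟩
  have hEeq : E = Z := Finset.eq_of_subset_of_card_le hEZ (by omega)
  exact hEcen w (hEeq ▸ hwZ) hcen

end CfsgLib.Fischer.FourProduct
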