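import Cfsg.Agent.Lib.Fischer.FourProduct.Sextet
import Cfsg.Agent.Lib.Fischer.FourProduct.Counts
import Cfsg.Agent.Lib.Fischer.FourProduct.OddCentralizer
import Cfsg.Agent.Lib.Fischer.FourProduct.Frame
import Cfsg.Agent.Lib.Fischer.FourProduct.Extraspecial
import Cfsg.Agent.Lib.Fischer.Parity.Sign
import Cfsg.Agent.Lib.ThompsonJ.Replacement

/-!
Groups of type M(24): in the centralizer of a product of four commuting members the pair group is extraspecial of
order `2 ^ 13` and is complemented modulo the product by the frame.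
-/

set_option autoImplicit false
set_option linter.unusedSectionVars false
set_option linter.style.haveILetI false

namespace CfsgLib.Fischer.FourProduct

open CfsgLib.Fischer CfsgLib.InvChar.FischerProducts CfsgLib.Fischer.MaxCommuting
open CfsgLib.SchurMult
open scoped Classical commutatorElement

universe u

variable {G : Type u} [Group G] [Finite G] {D : Set G} {z : G}
variable (hD : Cfsg.IsThreeTranspositionGroup D) (hprim : Cfsg.IsPrimitiveUnderConj D)
  (ht : Cfsg.IsOfTypeM24 G D) (F : Frame D z)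

include hD hprim ht

theorem orderOf_y : orderOf F.y = 3 :=
  haveI : Fact (Nat.Prime 3) := ⟨Nat.prime_three⟩
  orderOf_eq_prime F.y_cube F.y_ne

theorem y_inv : F.y⁻¹ = F.y * F.y :=
  inv_eq_of_mul_eq_one_right (by rw [← pow_three, F.y_cube])

include F in
/-- An element of the pair group whose cube is one is trivial. -/
theorem eq_one_of_cube {q : G} (hq : q ∈ pairs D z) (h : q ^ 3 = 1) : q = 1 := by
  obtain ⟨T₀, hT₀⟩ := F.four
  rw [pow_three] at h
  have h4 : q * q * (q * q) = 1 := by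
    rcases sq_cases hD hprim ht hT₀ hq with k | k <;> rw [k]
    · exact one_mul 1
    · exact z_sq hD hprim ht hT₀
  calc q = q * (q * (q * q)) := by rw [h, mul_one]
    _ = q * q * (q * q) := (mul_assoc q q (q * q)).symm
    _ = 1 := h4

theorem eq_one_of_mem_zpowers_y {q : G} (hq : q ∈ pairs D z) (h : q ∈ Subgroup.zpowers F.y) : q = 1 := by
  refine eq_one_of_cube hD hprim ht F hq ?_
  obtain ⟨i, rfl⟩ := h
  show (F.y ^ i) ^ 3 = 1
  rw [← zpow_natCast, ← zpow_mul, mul_comm, zpow_mul, zpow_natCast, F.y_cube, one_zpow]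

theorem minus_mul_self : (U43.minus.1 : U43.O6) * U43.minus.1 = 1 :=
  ClassicalForms.orth_ext fun x => by
    rw [ClassicalForms.orth_mul_apply, U43.minus_apply, U43.minus_apply, neg_neg, ClassicalForms.orth_one_apply]

/-- An element of the frame acting as a scalar is in `⟨y⟩` up to the product. -/
theorem scalar_cases {g : F.P} (h : F.f g = 1 ∨ F.f g = U43.minus.1) :
    (g : G) ∈ Subgroup.zpowers F.y ∨ (g : G) * z ∈ Subgroup.zpowers F.y := by
  rcases h with h | h
  · exact Or.inl (F.ker g h)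
  · exact Or.inr (F.ker (g * ⟨z, F.z_mem⟩) (by rw [map_mul, h, F.f_z, minus_mul_self hD hprim ht]))

theorem inf_eq {q : G} (hq : q ∈ pairs D z) (hqP : q ∈ F.P) : q = 1 ∨ q = z := by
  obtain ⟨T₀, hT₀⟩ := F.four
  rcases scalar_cases hD hprim ht F (F.scalar ⟨q, hqP⟩ fun T hT a ha => keeps_mem hD hprim ht hq hT ha) with h | h
  · exact Or.inl (eq_one_of_mem_zpowers_y hD hprim ht F hq h)
  · refine Or.inr ?_
    have := eq_one_of_mem_zpowers_y hD hprim ht F (mul_mem hq (z_mem_pairs hD hprim ht hT₀)) h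
    rw [eq_inv_of_mul_eq_one_left this, z_inv hD hprim ht hT₀]

theorem P_le : F.P ≤ Subgroup.centralizer ({z} : Set G) := fun _ hg =>
  Subgroup.mem_centralizer_singleton_iff.2 (F.P_le _ hg).1.eq

theorem le_normalizer {K : Subgroup G} (hK : K ≤ Subgroup.centralizer ({z} : Set G)) :
    K ≤ Subgroup.normalizer (pairs D z : Set G) := by
  intro k hk
  have hkz : Commute k z := Subgroup.mem_centralizer_singleton_iff.1 (hK hk)
  refine Subgroup.mem_normalizer_iff.2 fun q => ⟨fun hq => pairs_conj hD hprim ht hkz hq, fun hq => ?_⟩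
  have := pairs_conj hD hprim ht hkz.inv_left hq
  rwa [show k⁻¹ * (k * q * k⁻¹) * k⁻¹⁻¹ = q by group] at this

theorem mem_sup_pairs {K : Subgroup G} (hK : K ≤ Subgroup.centralizer ({z} : Set G)) {x : G}
    (hx : x ∈ K ⊔ pairs D z) : ∃ q ∈ pairs D z, ∃ p ∈ K, x = q * p := by
  rw [sup_comm, ← SetLike.mem_coe,
    Subgroup.coe_mul_of_right_le_normalizer_left (pairs D z) K (le_normalizer hD hprim ht hK)] at hx
  obtain ⟨q, hq, p, hp, rfl⟩ := hx
  exact ⟨q, hq, p, hp, rfl⟩

theorem m_notMem : F.m ∉ F.P ⊔ pairs D z := by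
  intro h
  obtain ⟨q, hq, p, hp, hm⟩ := mem_sup_pairs hD hprim ht (P_le hD hprim ht F) h
  have hy := (F.P_le p hp).2
  have h1 : q * F.y * q⁻¹ = F.y⁻¹ := by
    have h2 := F.m_y
    rw [hm, show q * p * F.y * (q * p)⁻¹ = q * (p * F.y * p⁻¹) * q⁻¹ by group, hy.eq, mul_inv_cancel_right] at h2
    exact h2
  have hc : q * (F.y * q⁻¹ * F.y⁻¹) ∈ pairs D z :=
    mul_mem hq (pairs_conj hD hprim ht (F.P_le _ F.y_mem).1 (inv_mem hq))
  rw [show q * (F.y * q⁻¹ * F.y⁻¹) = q * F.y * q⁻¹ * F.y⁻¹ by group, h1] at hc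
  have h3 : F.y⁻¹ * F.y⁻¹ = F.y := by
    rw [← mul_inv_rev, ← y_inv hD hprim ht F, inv_inv]
  rw [h3] at hc
  exact F.y_ne (eq_one_of_mem_zpowers_y hD hprim ht F hc (Subgroup.mem_zpowers _))

theorem natCard_ker : Nat.card F.f.ker = 3 := by
  have h : F.f.ker.map F.P.subtype = Subgroup.zpowers F.y := by
    refine le_antisymm ?_ (Subgroup.zpowers_le.2 ⟨⟨F.y, F.y_mem⟩, F.f_y, rfl⟩)
    rintro _ ⟨g, hg, rfl⟩
    exact F.ker g hg
  rw [← Subgroup.card_map_of_injective F.P.subtype_injective, h, Nat.card_zpowers, orderOf_y hD hprim ht F]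

theorem natCard_omega : Nat.card U43.Om6 = 6531840 := by
  rw [Subgroup.card_eq_card_quotient_mul_card_subgroup (Subgroup.center U43.Om6), U43.card_G0]
  have hc : (Subgroup.center U43.Om6 : Set U43.Om6) = {1, U43.minus} := by
    ext x; rw [SetLike.mem_coe, U43.mem_center]; simp
  rw [show Nat.card (Subgroup.center U43.Om6) = ((Subgroup.center U43.Om6 : Set U43.Om6)).ncard from
    Nat.card_coe_set_eq _, hc, Set.ncard_pair U43.minus_ne_one.symm]

/-- The part of the frame over the commutator subgroup of the orthogonal group. -/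
def omegaPart : Subgroup G := (U43.Om6.comap F.f).map F.P.subtype

theorem omegaPart_le : omegaPart F ≤ F.P := Subgroup.map_subtype_le _

/-- The frame map onto the commutator subgroup. -/
def omegaMap : U43.Om6.comap F.f →* U43.Om6 := F.f.subgroupComap U43.Om6

theorem omegaMap_surjective : Function.Surjective (omegaMap F) := fun w => by
  obtain ⟨g, hg⟩ := F.omega w.2
  exact ⟨⟨g, show F.f g ∈ U43.Om6 by rw [hg]; exact w.2⟩, Subtype.ext hg⟩

theorem natCard_omegaPart : Nat.card (omegaPart F) = 19595520 := by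
  have h := Subgroup.card_eq_card_quotient_mul_card_subgroup (omegaMap F).ker
  rw [Nat.card_congr (QuotientGroup.quotientKerEquivOfSurjective _ (omegaMap_surjective hD hprim ht F)).toEquiv,
    natCard_omega hD hprim ht] at h
  have hk : Nat.card (omegaMap F).ker = 3 := by
    have e : (omegaMap F).ker.map (U43.Om6.comap F.f).subtype = F.f.ker := by
      ext g
      constructor
      · rintro ⟨x, hx, rfl⟩
        exact congrArg Subtype.val (MonoidHom.mem_ker.1 hx)
      · intro hg
        exact ⟨⟨g, show F.f g ∈ U43.Om6 by rw [MonoidHom.mem_ker.1 hg]; exact one_mem _⟩,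
          Subtype.ext (MonoidHom.mem_ker.1 hg), rfl⟩
    rw [← Subgroup.card_map_of_injective (U43.Om6.comap F.f).subtype_injective, e, natCard_ker hD hprim ht F]
  rw [hk] at h
  rw [omegaPart, Subgroup.card_map_of_injective F.P.subtype_injective, h]

theorem omegaPart_ker {ε : G →* ℤˣ} : omegaPart F ≤ ε.ker := by
  rintro _ ⟨g, hg, rfl⟩
  let g' : U43.Om6.comap F.f := ⟨g, hg⟩
  have hmap : (commutator (U43.Om6.comap F.f)).map (omegaMap F) = ⊤ := by
    rw [commutator_def, Subgroup.map_commutator, Subgroup.map_top_of_surjective _ (omegaMap_surjective hD hprim ht F),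
      ← commutator_def, U43.perfect_Om6]
  obtain ⟨c, hc, hcg⟩ : omegaMap F g' ∈ (commutator (U43.Om6.comap F.f)).map (omegaMap F) :=
    hmap ▸ Subgroup.mem_top _
  let χ : U43.Om6.comap F.f →* ℤˣ := ε.comp (F.P.subtype.comp (U43.Om6.comap F.f).subtype)
  have hχc : χ c = 1 := Abelianization.commutator_subset_ker χ hc
  have hker : omegaMap F (c⁻¹ * g') = 1 := by rw [map_mul, map_inv, hcg, inv_mul_cancel]
  have hy := F.ker ((c⁻¹ * g').1) (congrArg Subtype.val hker)
  have hεy : ε F.y = 1 := by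
    have h3 : (ε F.y) ^ 3 = 1 := by rw [← map_pow, F.y_cube, map_one]
    rcases Int.units_eq_one_or (ε F.y) with h | h
    · exact h
    · rw [h] at h3; exact absurd h3 (by decide)
  obtain ⟨i, hi⟩ := hy
  have hi' : χ (c⁻¹ * g') = 1 := by
    show ε ((c⁻¹ * g').1 : G) = 1
    rw [← hi]
    show ε (F.y ^ i) = 1
    rw [map_zpow, hεy, one_zpow]
  rw [map_mul, map_inv, hχc, inv_one, one_mul] at hi'
  exact hi'

theorem card_facts : Nat.card (pairs D z) = 2 ^ 13 ∧ Nat.card F.P = 39191040 ∧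
    2 * Nat.card ↥(F.P ⊔ pairs D z) = Nat.card (Subgroup.centralizer ({z} : Set G)) ∧
    Nat.card ↥(F.P ⊓ pairs D z) = 2 := by
  obtain ⟨T₀, hT₀⟩ := F.four
  obtain ⟨L, hL, T, hS⟩ := exists_sextet hD hprim ht hT₀
  have hQ := (card_pairs_ge hD hprim ht hL hS).1
  have hK := natCard_centralizer hD hprim ht hT₀
  have hinf : Nat.card ↥(F.P ⊓ pairs D z) = 2 := by
    have hset : ((F.P ⊓ pairs D z : Subgroup G) : Set G) = {1, z} := by
      ext q
      simp only [SetLike.mem_coe, Subgroup.mem_inf, Set.mem_insert_iff, Set.mem_singleton_iff]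
      constructor
      · exact fun h => inf_eq hD hprim ht F h.2 h.1
      · rintro (rfl | rfl)
        · exact ⟨one_mem _, one_mem _⟩
        · exact ⟨F.z_mem, z_mem_pairs hD hprim ht hT₀⟩
    rw [show Nat.card ↥(F.P ⊓ pairs D z) = ((F.P ⊓ pairs D z : Subgroup G) : Set G).ncard from
      Nat.card_coe_set_eq _, hset, Set.ncard_pair (z_ne_one hD hprim ht hT₀).symm]
  have hprod := CfsgLib.ThompsonJ.card_sup_mul_card_inf F.P (pairs D z) (le_normalizer hD hprim ht (P_le hD hprim ht F))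
  rw [hinf] at hprod
  have hP : 39191040 ≤ Nat.card F.P := by
    have h1 := Subgroup.card_mul_index F.f.ker
    rw [Subgroup.index_ker, natCard_ker hD hprim ht F] at h1
    have h2 : Nat.card U43.Om6 ∣ Nat.card F.f.range := Subgroup.card_dvd_of_le F.omega
    haveI : Finite ↥F.f.range := Finite.of_surjective F.f.rangeRestrict F.f.rangeRestrict_surjective
    have h3 : Nat.card U43.Om6 ≠ Nat.card F.f.range := by
      intro heq
      obtain ⟨s, hs⟩ := F.member
      have hle : F.f.range = U43.Om6 := (Subgroup.eq_of_le_of_card_ge F.omega heq.ge).symm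
      obtain ⟨ε, hε⟩ := Parity.exists_parity hD hprim ht
      have := omegaPart_ker hD hprim ht F (ε := ε) ⟨s, show F.f s ∈ U43.Om6 from hle ▸ ⟨s, rfl⟩, rfl⟩
      rw [MonoidHom.mem_ker, show F.P.subtype s = (s : G) from rfl, hε _ hs] at this
      exact absurd this (by decide)
    rw [natCard_omega hD hprim ht] at h2 h3
    obtain ⟨r, hr⟩ := h2
    have hr0 : 0 < Nat.card F.f.range := Nat.card_pos
    have : 2 ≤ r := by
      rcases r with _ | _ | r
      · omega
      · exact absurd (by rw [hr]) h3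
      · omega
    rw [← h1, hr]
    omega
  have hle : F.P ⊔ pairs D z ≤ Subgroup.centralizer ({z} : Set G) :=
    sup_le (P_le hD hprim ht F) (pairs_le_centralizer hD hprim ht)
  have hlt : 2 * Nat.card ↥(F.P ⊔ pairs D z) ≤ Nat.card (Subgroup.centralizer ({z} : Set G)) := by
    obtain ⟨r, hr⟩ := Subgroup.card_dvd_of_le hle
    have hne : r ≠ 1 := fun h => m_notMem hD hprim ht F (by
      rw [h, mul_one] at hr
      rw [Subgroup.eq_of_le_of_card_ge hle hr.le]
      exact Subgroup.mem_centralizer_singleton_iff.2 F.m_z.eq)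
    have hr0 : r ≠ 0 := fun h => by
      rw [h, mul_zero, hK] at hr
      norm_num at hr
    rw [hr, mul_comm 2]
    exact Nat.mul_le_mul_left _ (by omega)
  rw [hK] at hlt
  have hq : Nat.card (pairs D z) = 2 ^ 13 := by
    refine le_antisymm ?_ hQ
    by_contra hgt
    have := Nat.mul_le_mul hP (not_le.1 hgt)
    omega
  have hp : Nat.card F.P = 39191040 := by rw [hq] at hprod; omega
  rw [hq, hp] at hprod
  refine ⟨hq, hp, ?_, hinf⟩
  rw [hK]; omega

theorem cases_of_mem {x : G} (hx : Commute x z) : x ∈ F.P ⊔ pairs D z ∨ x * F.m ∈ F.P ⊔ pairs D z := by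
  have hle : F.P ⊔ pairs D z ≤ Subgroup.centralizer ({z} : Set G) :=
    sup_le (P_le hD hprim ht F) (pairs_le_centralizer hD hprim ht)
  obtain ⟨-, -, h2, -⟩ := card_facts hD hprim ht F
  have hidx : ((F.P ⊔ pairs D z).subgroupOf (Subgroup.centralizer ({z} : Set G))).index = 2 := by
    have h1 := Subgroup.card_mul_index ((F.P ⊔ pairs D z).subgroupOf (Subgroup.centralizer ({z} : Set G)))
    rw [Nat.card_congr (Subgroup.subgroupOfEquivOfLe hle).toEquiv, ← h2, mul_comm 2] at h1
    exact Nat.eq_of_mul_eq_mul_left Nat.card_pos h1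
  by_cases h : x ∈ F.P ⊔ pairs D z
  · exact Or.inl h
  right
  have := Subgroup.mul_mem_iff_of_index_two hidx (a := ⟨x, Subgroup.mem_centralizer_singleton_iff.2 hx.eq⟩)
    (b := ⟨F.m, Subgroup.mem_centralizer_singleton_iff.2 F.m_z.eq⟩)
  simp only [Subgroup.mem_subgroupOf, Subgroup.coe_mul] at this
  exact this.2 ⟨fun k => absurd k h, fun k => absurd k (m_notMem hD hprim ht F)⟩

/-- An element of `⟨y⟩` differing by an element of the pair group from one fixing all tetrads is trivial. -/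
theorem eq_one_of_fix {q r w : G} (hq : q ∈ pairs D z) (hw : w ∈ Subgroup.zpowers F.y)
    (hr : ∀ T, IsTetrad D z T → ∀ a ∈ T, Commute r a) (h : q * w = r) : w = 1 := by
  obtain ⟨T₀, hT₀⟩ := F.four
  obtain ⟨L, hL, hTL⟩ := exists_max hD hprim ht T₀ hT₀.sub hT₀.comm
  have hw' : w = q⁻¹ * r := by rw [← h, inv_mul_cancel_left]
  have hmove : ∀ T, IsTetrad D z T → ∀ a ∈ T, w * a * w⁻¹ = q⁻¹ * a * q := fun T hT a ha => by
    rw [hw', show q⁻¹ * r * a * (q⁻¹ * r)⁻¹ = q⁻¹ * (r * a * r⁻¹) * q by group, (hr T hT a ha).eq,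
      mul_inv_cancel_right]
  have h3 : w ^ 3 = 1 := by
    obtain ⟨i, rfl⟩ := hw
    show (F.y ^ i) ^ 3 = 1
    rw [← zpow_natCast, ← zpow_mul, mul_comm, zpow_mul, zpow_natCast, F.y_cube, one_zpow]
  have h2 : ∀ a ∈ L, Commute (w * w) a := by
    intro a ha
    have haz : Commute a z := hT₀.prod ▸ commute_word fun b hb => hL.comm a ha b (hTL hb)
    obtain ⟨T, hT, haT⟩ := exists_tetrad_of_commute hD hprim ht hT₀ (hL.subset ha) haz
    refine mul_inv_eq_iff_eq_mul.1 ?_
    have hmem : q⁻¹ * a * q ∈ T := by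
      have := keeps_mem hD hprim ht (inv_mem hq) hT haT
      rwa [inv_inv] at this
    rw [show w * w * a * (w * w)⁻¹ = w * (w * a * w⁻¹) * w⁻¹ by group, hmove T hT a haT, hmove T hT _ hmem,
      show q⁻¹ * (q⁻¹ * a * q) * q = (q * q)⁻¹ * a * (q * q) by group]
    rcases sq_cases hD hprim ht hT₀ hq with k | k <;> rw [k]
    · simp
    · rw [mul_assoc, haz.eq, inv_mul_cancel_left]
  have hodd : Odd (orderOf (w * w)) := by
    have hd : orderOf (w * w) ∣ 3 := orderOf_dvd_of_pow_eq_one (by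
      rw [(Commute.refl w).mul_pow, h3, one_mul])
    rcases (Nat.dvd_prime Nat.prime_three).1 hd with k | k <;> rw [k] <;> decide
  have h4 := eq_one_of_odd hD hprim ht hL hodd h2
  rwa [pow_three, h4, mul_one] at h3

include F in
/-- Only the pair group centralizes itself. -/
theorem centralizer_le {x : G} (hxz : Commute x z) (hx : ∀ q ∈ pairs D z, Commute x q) : x ∈ pairs D z := by
  obtain ⟨T₀, hT₀⟩ := F.four
  have hfix : ∀ T, IsTetrad D z T → ∀ a ∈ T, Commute x a := fun T hT a ha =>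
    fix_of_commute hD hprim ht hT (fun u hu v hv => hx _ (Subgroup.subset_closure ⟨T, hT, u, hu, v, hv, rfl⟩)) ha
  rcases cases_of_mem hD hprim ht F hxz with h | h
  · obtain ⟨q, hq, p, hp, rfl⟩ := mem_sup_pairs hD hprim ht (P_le hD hprim ht F) h
    have hsc := F.scalar ⟨p, hp⟩ fun T hT a ha => by
      have hk := (hfix T hT a ha).eq
      have : p * a * p⁻¹ = q⁻¹ * a * q⁻¹⁻¹ := by
        calc p * a * p⁻¹ = q⁻¹ * (q * p * a) * p⁻¹ := by group
          _ = q⁻¹ * (a * (q * p)) * p⁻¹ := by rw [hk]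
          _ = _ := by group
      rw [this]
      exact keeps_mem hD hprim ht (inv_mem hq) hT ha
    rcases scalar_cases hD hprim ht F hsc with k | k
    · change p ∈ Subgroup.zpowers F.y at k
      rw [eq_one_of_fix hD hprim ht F hq k hfix rfl, mul_one]
      exact hq
    · change p * z ∈ Subgroup.zpowers F.y at k
      have hzQ := z_mem_pairs hD hprim ht hT₀
      have hpz : p * z = z * p := (F.P_le p hp).1.eq
      have h1 := eq_one_of_fix hD hprim ht F (mul_mem hq hzQ) k hfix
        (show q * z * (p * z) = q * p by rw [hpz, show q * z * (z * p) = q * (z * z) * p by group,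
          z_sq hD hprim ht hT₀, mul_one])
      rw [eq_inv_of_mul_eq_one_left (show p * z = 1 from h1), z_inv hD hprim ht hT₀]
      exact mul_mem hq hzQ
  · exfalso
    obtain ⟨q, hq, p, hp, he⟩ := mem_sup_pairs hD hprim ht (P_le hD hprim ht F) h
    have hx' : x = q * p * F.m⁻¹ := by rw [← he]; group
    have hyz := (F.P_le _ F.y_mem).1
    have hmy : F.m⁻¹ * F.y * F.m = F.y⁻¹ := by
      have := congrArg (fun g => g⁻¹) F.m_y
      simp only [mul_inv_rev, inv_inv] at this
      calc F.m⁻¹ * F.y * F.m = F.m⁻¹ * (F.m * (F.y⁻¹ * F.m⁻¹)) * F.m := by rw [this]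
        _ = F.y⁻¹ := by group
    have hxy : x * F.y * x⁻¹ = q * F.y⁻¹ * q⁻¹ := by
      rw [hx', show q * p * F.m⁻¹ * F.y * (q * p * F.m⁻¹)⁻¹ = q * (p * (F.m⁻¹ * F.y * F.m) * p⁻¹) * q⁻¹ by group,
        hmy, ((F.P_le p hp).2.inv_right).eq, mul_inv_cancel_right]
    let q' := q * (F.y⁻¹ * q⁻¹ * F.y⁻¹⁻¹)
    have hq' : q' ∈ pairs D z := mul_mem hq (pairs_conj hD hprim ht hyz.inv_left (inv_mem hq))
    have hr : q' * F.y = x * F.y * x⁻¹ * F.y⁻¹ := by
      rw [hxy]
      have h3 : F.y = F.y⁻¹ * F.y⁻¹ := by rw [← mul_inv_rev, ← y_inv hD hprim ht F, inv_inv]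
      show q * (F.y⁻¹ * q⁻¹ * F.y⁻¹⁻¹) * F.y = q * F.y⁻¹ * q⁻¹ * F.y⁻¹
      conv_lhs =>
        arg 2
        rw [h3]
      group
    refine F.y_ne (eq_one_of_fix hD hprim ht F hq' (Subgroup.mem_zpowers _) (fun T hT a ha => ?_) hr)
    have hT' := hT.conj hD hprim ht hyz.inv_left
    have h1 : Commute x (F.y⁻¹ * a * F.y⁻¹⁻¹) := hfix _ hT' _ (Finset.mem_image.2 ⟨a, ha, rfl⟩)
    have h2 := (conj_commute_iff F.y x _).2 h1
    rw [show F.y * (F.y⁻¹ * a * F.y⁻¹⁻¹) * F.y⁻¹ = a by group] at h2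
    have h4 := (hfix T hT a ha).mul_left h2.inv_left
    rwa [show x * (F.y * x * F.y⁻¹)⁻¹ = x * F.y * x⁻¹ * F.y⁻¹ by group] at h4

include F in
theorem eq_of_central {w : G} (hw : w ∈ pairs D z) (hc : ∀ q ∈ pairs D z, Commute w q) : w = 1 ∨ w = z := by
  obtain ⟨T₀, hT₀⟩ := F.four
  obtain ⟨L, hL, T, hS⟩ := exists_sextet hD hprim ht hT₀
  exact (card_pairs_ge hD hprim ht hL hS).2 (card_facts hD hprim ht F).1 w hw fun T' hT' a ha =>
    fix_of_commute hD hprim ht hT' (fun u hu v hv => hc _ (Subgroup.subset_closure ⟨T', hT', u, hu, v, hv, rfl⟩)) ha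

end CfsgLib.Fischer.FourProduct
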