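import Cfsg.Agent.Lib.Fischer.MaxCommuting.OctadMembers
import Cfsg.Agent.Lib.Fischer.Parity.TripleProduct

/-!
Groups of type M(24): the sets of four commuting members with a given product, and the group generated by the
products of two members of one of them.
-/

set_option autoImplicit false
set_option linter.unusedSectionVars false

namespace CfsgLib.Fischer.FourProduct

open CfsgLib.Fischer CfsgLib.InvChar.FischerProducts CfsgLib.Fischer.MaxCommuting
open scoped Classical

variable {G : Type*} [Group G]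

/-- Four commuting members with product `z`. -/
structure IsTetrad (D : Set G) (z : G) (T : Finset G) : Prop where
  card : T.card = 4
  sub : ∀ a ∈ T, a ∈ D
  comm : ∀ a ∈ T, ∀ b ∈ T, Commute a b
  prod : word T = z

/-- The products of two members of one tetrad generate this group. -/
def pairs (D : Set G) (z : G) : Subgroup G :=
  Subgroup.closure {g | ∃ T, IsTetrad D z T ∧ ∃ a ∈ T, ∃ b ∈ T, g = a * b}

variable [Finite G] {D : Set G}
variable (hD : Cfsg.IsThreeTranspositionGroup D) (hprim : Cfsg.IsPrimitiveUnderConj D)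
  (ht : Cfsg.IsOfTypeM24 G D)

include hD hprim ht

/-- Commuting members lie in a maximal commuting set. -/
theorem exists_max (S : Finset G) (hS : ∀ a ∈ S, a ∈ D) (hc : ∀ a ∈ S, ∀ b ∈ S, Commute a b) :
    ∃ L : Finset G, IsMax D (L : Set G) ∧ S ⊆ L := by
  obtain ⟨L, hL, hSL⟩ := exists_isMax (D := D) (S := (S : Set G)) hS hc
  exact ⟨(Set.toFinite L).toFinset, by rwa [Set.Finite.coe_toFinset],
    fun a ha => (Set.toFinite L).mem_toFinset.2 (hSL ha)⟩

variable {z : G}

omit hD hprim ht in
theorem IsTetrad.commute_z {T : Finset G} (hT : IsTetrad D z T) {a : G} (ha : a ∈ T) : Commute a z :=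
  hT.prod ▸ commute_word fun b hb => hT.comm a ha b hb

theorem z_ne_one {T : Finset G} (hT : IsTetrad D z T) : z ≠ 1 := by
  obtain ⟨L, hL, hTL⟩ := exists_max hD hprim ht T hT.sub hT.comm
  rw [← hT.prod]
  exact word_ne_one hD hprim ht hL hTL (Finset.card_pos.1 (by rw [hT.card]; norm_num)) (by rw [hT.card]; norm_num)

theorem z_sq {T : Finset G} (hT : IsTetrad D z T) : z * z = 1 := by
  obtain ⟨L, hL, hTL⟩ := exists_max hD hprim ht T hT.sub hT.comm
  rw [← hT.prod]
  exact word_sq hD hprim ht hL hTL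

theorem z_inv {T : Finset G} (hT : IsTetrad D z T) : z⁻¹ = z :=
  inv_eq_of_mul_eq_one_right (z_sq hD hprim ht hT)

/-- A member commuting with the product and one member of a tetrad commutes with all four. -/
theorem commute_all {T : Finset G} (hT : IsTetrad D z T) {x : G} (hx : x ∈ D) (hxz : Commute x z) {a : G}
    (ha : a ∈ T) (hxa : Commute x a) {b : G} (hb : b ∈ T) : Commute x b :=
  (commute_iff_of_four hD.1 hx (l := T.toList) (fun y hy => hT.sub y (Finset.mem_toList.1 hy)) T.nodup_toList
    (fun y hy w hw => hT.comm y (Finset.mem_toList.1 hy) w (Finset.mem_toList.1 hw))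
    (by rw [show T.toList.prod = z from hT.prod]; exact hxz) (by rw [Finset.length_toList, hT.card])
    (Finset.mem_toList.2 ha) (Finset.mem_toList.2 hb)).1 hxa

/-- A member commuting with a tetrad lies in a tetrad of the same maximal set. -/
theorem exists_tetrad_in {L : Finset G} (hL : IsMax D (L : Set G)) {T : Finset G} (hT : IsTetrad D z T)
    (hTL : T ⊆ L) {x : G} (hxL : x ∈ L) (hxT : x ∉ T) :
    ∃ T', IsTetrad D z T' ∧ x ∈ T' ∧ T' ⊆ L ∧ Disjoint T T' ∧ IsOctad L (T ∪ T') := by
  obtain ⟨O, hO, hPO⟩ := exists_octad hD hprim ht hL (P := insert x T) (Finset.insert_subset hxL hTL)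
    (by rw [Finset.card_insert_of_notMem hxT, hT.card])
  have hTO : T ⊆ O := fun a ha => hPO (Finset.mem_insert_of_mem ha)
  have hsub : O \ T ⊆ L := Finset.sdiff_subset.trans hO.1
  have hun : T ∪ O \ T = O := Finset.union_sdiff_of_subset hTO
  have hw := word_union hD hprim ht hL hTL hsub Finset.disjoint_sdiff
  rw [hun, hO.2.2, hT.prod] at hw
  refine ⟨O \ T, ⟨by rw [Finset.card_sdiff_of_subset hTO, hO.2.1, hT.card],
    fun a ha => hL.subset (hsub ha), fun a ha b hb => hL.comm a (hsub ha) b (hsub hb), ?_⟩,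
    Finset.mem_sdiff.2 ⟨hPO (Finset.mem_insert_self _ _), hxT⟩, hsub, Finset.disjoint_sdiff, by rwa [hun]⟩
  rw [← eq_inv_of_mul_eq_one_right hw.symm |>.trans (z_inv hD hprim ht hT)]

theorem exists_tetrad {T : Finset G} (hT : IsTetrad D z T) {x : G} (hx : x ∈ D) (hxz : Commute x z) {a : G}
    (ha : a ∈ T) (hxa : Commute x a) : ∃ T', IsTetrad D z T' ∧ x ∈ T' := by
  by_cases hxT : x ∈ T
  · exact ⟨T, hT, hxT⟩
  have hall := fun b hb => commute_all hD hprim ht hT hx hxz ha hxa (b := b) hb
  obtain ⟨L, hL, hSL⟩ := exists_max hD hprim ht (insert x T)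
    (fun b hb => by
      rcases Finset.mem_insert.1 hb with rfl | hb
      exacts [hx, hT.sub b hb])
    (fun b hb c hc => by
      rcases Finset.mem_insert.1 hb with h | h <;> rcases Finset.mem_insert.1 hc with k | k
      exacts [h ▸ k ▸ Commute.refl _, h ▸ hall c k, k ▸ (hall b h).symm, hT.comm b h c k])
  obtain ⟨T', h1, h2, -⟩ := exists_tetrad_in hD hprim ht hL hT (fun b hb => hSL (Finset.mem_insert_of_mem hb))
    (hSL (Finset.mem_insert_self _ _)) hxT
  exact ⟨T', h1, h2⟩

/-- Every member commuting with the product lies in a tetrad. -/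
theorem exists_tetrad_of_commute {T : Finset G} (hT : IsTetrad D z T) {y : G} (hy : y ∈ D) (hyz : Commute y z) :
    ∃ T', IsTetrad D z T' ∧ y ∈ T' := by
  obtain ⟨a, ha⟩ : T.Nonempty := Finset.card_pos.1 (by rw [hT.card]; norm_num)
  by_cases hya : Commute y a
  · exact exists_tetrad hD hprim ht hT hy hyz ha hya
  obtain ⟨L, hL, hTL⟩ := exists_max hD hprim ht T hT.sub hT.comm
  have hyL : y ∉ L := fun k => hya (hL.comm y k a (hTL ha))
  obtain ⟨u, huL, hu⟩ : (nb (L : Set G) y).Nonempty := by
    refine (Set.ncard_pos (Set.toFinite _)).1 ?_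
    rcases (twentyFour hD hprim ht hL).2.1 y hy hyL with h | h <;> rw [h] <;> norm_num
  have huz : Commute u z := hT.prod ▸ commute_word fun b hb => hL.comm u huL b (hTL hb)
  obtain ⟨T'', hT'', huT⟩ := exists_tetrad hD hprim ht hT (hL.subset huL) huz ha (hL.comm u huL a (hTL ha))
  exact exists_tetrad hD hprim ht hT'' hy hyz huT hu

/-- Tetrads with a common member are equal. -/
theorem eq_of_mem {T T' : Finset G} (hT : IsTetrad D z T) (hT' : IsTetrad D z T') {x : G} (hx : x ∈ T)
    (hx' : x ∈ T') : T = T' := by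
  have hcross : ∀ a ∈ T, ∀ b ∈ T', Commute a b := fun a ha b hb =>
    commute_all hD hprim ht hT' (hT.sub a ha) (hT.commute_z ha) hx' (hT.comm a ha x hx) hb
  obtain ⟨L, hL, hSL⟩ := exists_max hD hprim ht (T ∪ T')
    (fun b hb => (Finset.mem_union.1 hb).elim (hT.sub b) (hT'.sub b))
    (fun b hb c hc => by
      rcases Finset.mem_union.1 hb with hb | hb <;> rcases Finset.mem_union.1 hc with hc | hc
      exacts [hT.comm b hb c hc, hcross b hb c hc, (hcross c hc b hb).symm, hT'.comm b hb c hc])
  have h1 : T ⊆ L := Finset.union_subset_left hSL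
  have h2 : T' ⊆ L := Finset.union_subset_right hSL
  refine eq_of_sd_eq_empty ?_
  by_contra hne
  have hc := card_sd T T'
  have hI : 0 < (T ∩ T').card := Finset.card_pos.2 ⟨x, Finset.mem_inter.2 ⟨hx, hx'⟩⟩
  rw [hT.card, hT'.card] at hc
  exact word_ne_one hD hprim ht hL (sd_subset h1 h2) (Finset.nonempty_iff_ne_empty.2 hne) (by omega)
    (by rw [word_sd hD hprim ht hL h1 h2, hT.prod, hT'.prod, z_sq hD hprim ht hT])

/-- Conjugation by an element centralizing the product. -/
theorem IsTetrad.conj {T : Finset G} (hT : IsTetrad D z T) {g : G} (hg : Commute g z) :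
    IsTetrad D z (T.image fun a => g * a * g⁻¹) := by
  refine ⟨by rw [Finset.card_image_of_injective _ fun a b h => mul_left_cancel (mul_right_cancel h), hT.card],
    fun a ha => ?_, fun a ha b hb => ?_, ?_⟩
  · obtain ⟨b, hb, rfl⟩ := Finset.mem_image.1 ha
    exact hD.2.1 g b (hT.sub b hb)
  · obtain ⟨a, ha', rfl⟩ := Finset.mem_image.1 ha
    obtain ⟨b, hb', rfl⟩ := Finset.mem_image.1 hb
    exact (conj_commute_iff g a b).2 (hT.comm a ha' b hb')
  · rw [show (T.image fun a => g * a * g⁻¹) = T.image (MulAut.conj g) from rfl,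
      word_map (MulAut.conj g) hT.comm, hT.prod, MulAut.conj_apply, hg.eq, mul_inv_cancel_right]

/-- Two tetrads commute or do not meet in the commuting graph. -/
theorem cross {T T' : Finset G} (hT : IsTetrad D z T) (hT' : IsTetrad D z T') {a e : G} (ha : a ∈ T)
    (he : e ∈ T') (hc : Commute a e) {a' e' : G} (ha' : a' ∈ T) (he' : e' ∈ T') : Commute a' e' := by
  have h1 : Commute a e' := commute_all hD hprim ht hT' (hT.sub a ha) (hT.commute_z ha) he hc he'
  exact (commute_all hD hprim ht hT (hT'.sub e' he') (hT'.commute_z he') ha h1.symm ha').symm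

omit hprim ht in
theorem pair_commute {T : Finset G} (hT : IsTetrad D z T) {a b : G} (ha : a ∈ T) (hb : b ∈ T) :
    Commute (a * b) z :=
  (hT.commute_z ha).mul_left (hT.commute_z hb)

omit hprim ht in
theorem pair_mul_self {T : Finset G} (hT : IsTetrad D z T) {a b : G} (ha : a ∈ T) (hb : b ∈ T) :
    a * b * (a * b) = 1 := by
  rw [show a * b * (a * b) = a * (b * a) * b by group, (hT.comm b hb a ha).eq, ← mul_assoc a,
    sq_eq_one hD.1 (hT.sub a ha), one_mul, sq_eq_one hD.1 (hT.sub b hb)]

/-- The product of two members of one tetrad keeps every tetrad. -/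
theorem pair_keeps {T T' : Finset G} (hT : IsTetrad D z T) (hT' : IsTetrad D z T') {a b : G} (ha : a ∈ T)
    (hb : b ∈ T) {e : G} (he : e ∈ T') : a * b * e * (a * b)⁻¹ ∈ T' := by
  by_cases hc : Commute a e
  · have hbe := cross hD hprim ht hT hT' ha he hc hb he
    rwa [(hc.mul_left hbe).eq, mul_inv_cancel_right]
  -- the conjugate of `T'` under any member of `T`
  have key : ∀ c ∈ T, (T'.image fun x => c * x * c⁻¹) = T.image fun x => e * x * e⁻¹ := by
    intro c hcT
    refine eq_of_mem hD hprim ht (hT'.conj hD hprim ht (hT.commute_z hcT))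
      (hT.conj hD hprim ht (hT'.commute_z he)) (x := c * e * c⁻¹)
      (Finset.mem_image.2 ⟨e, he, rfl⟩) (Finset.mem_image.2 ⟨c, hcT, ?_⟩)
    rw [inv_eq hD.1 (hT'.sub e he), inv_eq hD.1 (hT.sub c hcT)]
    exact braid hD.1 (hT'.sub e he) (hT.sub c hcT) fun k =>
      hc (cross hD hprim ht hT hT' hcT he k.symm ha he)
  have h : b * e * b⁻¹ ∈ T'.image fun x => a * x * a⁻¹ := by
    rw [key a ha, ← key b hb]
    exact Finset.mem_image.2 ⟨e, he, rfl⟩
  obtain ⟨f, hf, hfe⟩ := Finset.mem_image.1 h
  have hia := inv_eq hD.1 (hT.sub a ha)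
  have haa := sq_eq_one hD.1 (hT.sub a ha)
  have e1 : a * b * e * (a * b)⁻¹ = f := by
    rw [mul_inv_rev, hia, show a * b * e * (b⁻¹ * a) = a * (b * e * b⁻¹) * a by group, ← hfe, hia,
      show a * (a * f * a) * a = (a * a) * f * (a * a) by group, haa, one_mul, mul_one]
  rwa [e1]

theorem pair_moves {T T' : Finset G} (hT : IsTetrad D z T) (hT' : IsTetrad D z T') {a b : G} (ha : a ∈ T)
    (hb : b ∈ T) (hne : a ≠ b) {e : G} (he : e ∈ T') (hc : ¬ Commute a e) : a * b * e * (a * b)⁻¹ ≠ e := by
  intro h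
  have h1 : Commute e (a * b) := (mul_inv_eq_iff_eq_mul.1 h : a * b * e = e * (a * b)).symm
  exact hc (commute_of_short hD.1 (hT'.sub e he) (l := [a, b]) (by simp [hT.sub a ha, hT.sub b hb]) (by simp [hne])
    (by simp [hT.comm a ha b hb, (hT.comm a ha b hb).symm]) (by simpa using h1) (by simp) a (by simp)).symm

/-- The generators commute modulo the product. -/
theorem pair_pair {T T' : Finset G} (hT : IsTetrad D z T) (hT' : IsTetrad D z T') {a b e f : G} (ha : a ∈ T)
    (hb : b ∈ T) (he : e ∈ T') (hf : f ∈ T') :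
    a * b * (e * f) * (a * b)⁻¹ = e * f ∨ a * b * (e * f) * (a * b)⁻¹ = z * (e * f) := by
  have hsplit : a * b * (e * f) * (a * b)⁻¹ = a * b * e * (a * b)⁻¹ * (a * b * f * (a * b)⁻¹) := by group
  by_cases hab : a = b
  · left; rw [hab, sq_eq_one hD.1 (hT.sub b hb)]; group
  by_cases hef : e = f
  · left; rw [hef, sq_eq_one hD.1 (hT'.sub f hf)]; group
  by_cases hc : Commute a e
  · left
    have hfix : ∀ x ∈ T', a * b * x * (a * b)⁻¹ = x := fun x hx => by
      rw [((cross hD hprim ht hT hT' ha he hc ha hx).mul_left (cross hD hprim ht hT hT' ha he hc hb hx)).eq,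
        mul_inv_cancel_right]
    rw [hsplit, hfix e he, hfix f hf]
  have hcf : ¬ Commute a f := fun k => hc (cross hD hprim ht hT hT' ha hf k ha he)
  have he' := pair_keeps hD hprim ht hT hT' ha hb he
  have hf' := pair_keeps hD hprim ht hT hT' ha hb hf
  have hne1 := pair_moves hD hprim ht hT hT' ha hb hab he hc
  have hne2 := pair_moves hD hprim ht hT hT' ha hb hab hf hcf
  have hinv : ∀ x, a * b * (a * b * x * (a * b)⁻¹) * (a * b)⁻¹ = x := fun x => by
    rw [show a * b * (a * b * x * (a * b)⁻¹) * (a * b)⁻¹ = a * b * (a * b) * x * (a * b * (a * b))⁻¹ by group,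
      pair_mul_self hD hT ha hb]
    group
  rw [hsplit]
  generalize he0 : a * b * e * (a * b)⁻¹ = e' at he' hne1
  generalize hf0 : a * b * f * (a * b)⁻¹ = f' at hf' hne2
  by_cases h : e' = f
  · left
    subst h
    have : f' = e := by rw [← hf0, ← he0, hinv]
    rw [this, (hT'.comm _ hf e he).eq]
  right
  have hfe : f' ≠ e := fun k => h (by rw [← he0, ← k, ← hf0, hinv])
  have hef' : e' ≠ f' := fun k => hef (by
    have := congrArg (fun x => a * b * x * (a * b)⁻¹) k
    simp only [← he0, ← hf0, hinv] at this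
    exact this)
  have hn : [e, f, e', f'].Nodup := by simp [hef, Ne.symm hne1, Ne.symm hfe, Ne.symm h, Ne.symm hne2, hef']
  have heq : [e, f, e', f'].toFinset = T' := by
    refine Finset.eq_of_subset_of_card_le (fun x hx => ?_) ?_
    · simp at hx; rcases hx with rfl | rfl | rfl | rfl <;> assumption
    · rw [hT'.card, List.toFinset_card_of_nodup hn]; rfl
  have hp : [e, f, e', f'].prod = z := by
    rw [← hT'.prod, ← heq, word_toFinset hn fun x hx y hy => hT'.comm x (heq ▸ List.mem_toFinset.2 hx) y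
      (heq ▸ List.mem_toFinset.2 hy)]
  simp only [List.prod_cons, List.prod_nil, mul_one] at hp
  have hfe' : (e * f) * (e * f) = 1 := pair_mul_self hD hT' he hf
  have hz : Commute z (e * f) := (pair_commute hD hT' he hf).symm
  calc e' * f' = (e * f) * (e * f) * (e' * f') := by rw [hfe', one_mul]
    _ = (e * f) * z := by rw [← hp]; group
    _ = z * (e * f) := hz.eq.symm

theorem pairs_le_centralizer : pairs D z ≤ Subgroup.centralizer ({z} : Set G) := by
  rw [pairs, Subgroup.closure_le]
  rintro g ⟨T, hT, a, ha, b, hb, rfl⟩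
  exact Subgroup.mem_centralizer_singleton_iff.2 (pair_commute hD hT ha hb).eq

omit hprim ht in
theorem pairs_le_ker {ε : G →* ℤˣ} (hε : ∀ m ∈ D, ε m = -1) : pairs D z ≤ ε.ker := by
  rw [pairs, Subgroup.closure_le]
  rintro g ⟨T, hT, a, ha, b, hb, rfl⟩
  show ε (a * b) = 1
  rw [map_mul, hε a (hT.sub a ha), hε b (hT.sub b hb)]
  rfl

theorem z_mem_pairs {T : Finset G} (hT : IsTetrad D z T) : z ∈ pairs D z := by
  obtain ⟨a, b, c, d, hne, rfl⟩ : ∃ a b c d, [a, b, c, d].Nodup ∧ T = [a, b, c, d].toFinset := by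
    have hl : T.toList.length = 4 := by rw [Finset.length_toList, hT.card]
    match h : T.toList, hl with
    | [a, b, c, d], _ => exact ⟨a, b, c, d, h ▸ T.nodup_toList, by rw [← h, Finset.toList_toFinset]⟩
  have hp : word [a, b, c, d].toFinset = [a, b, c, d].prod :=
    word_toFinset hne fun x hx y hy => hT.comm x (List.mem_toFinset.2 hx) y (List.mem_toFinset.2 hy)
  have hz : z = (a * b) * (c * d) := by
    rw [← hT.prod, hp]; simp [mul_assoc]
  have hg : ∀ x y, x ∈ [a, b, c, d] → y ∈ [a, b, c, d] → x * y ∈ pairs D z := fun x y hx hy =>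
    Subgroup.subset_closure ⟨_, hT, x, List.mem_toFinset.2 hx, y, List.mem_toFinset.2 hy, rfl⟩
  have h1 := mul_mem (hg a b (by simp) (by simp)) (hg c d (by simp) (by simp))
  rwa [← hz] at h1

theorem pairs_conj {g : G} (hg : Commute g z) {q : G} (hq : q ∈ pairs D z) : g * q * g⁻¹ ∈ pairs D z := by
  induction hq using Subgroup.closure_induction with
  | mem x hx =>
    obtain ⟨T, hT, a, ha, b, hb, rfl⟩ := hx
    rw [show g * (a * b) * g⁻¹ = g * a * g⁻¹ * (g * b * g⁻¹) by group]
    exact Subgroup.subset_closure ⟨_, hT.conj hD hprim ht hg, _, Finset.mem_image.2 ⟨a, ha, rfl⟩, _,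
      Finset.mem_image.2 ⟨b, hb, rfl⟩, rfl⟩
  | one => rw [mul_one, mul_inv_cancel]; exact one_mem _
  | mul x y _ _ hx hy => rw [show g * (x * y) * g⁻¹ = g * x * g⁻¹ * (g * y * g⁻¹) by group]; exact mul_mem hx hy
  | inv x _ hx => rw [show g * x⁻¹ * g⁻¹ = (g * x * g⁻¹)⁻¹ by group]; exact inv_mem hx

/-- Every element of the pair group keeps every tetrad. -/
theorem keeps {q : G} (hq : q ∈ pairs D z) {T : Finset G} (hT : IsTetrad D z T) :
    (T.image fun a => q * a * q⁻¹) = T := by
  induction hq using Subgroup.closure_induction with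
  | mem x hx =>
    obtain ⟨T', hT', a, ha, b, hb, rfl⟩ := hx
    refine Finset.eq_of_subset_of_card_le (fun y hy => ?_)
      (Finset.card_image_of_injective T fun u v h => mul_left_cancel (mul_right_cancel h)).ge
    obtain ⟨e, he, rfl⟩ := Finset.mem_image.1 hy
    exact pair_keeps hD hprim ht hT' hT ha hb he
  | one => simp
  | mul x y _ _ hx hy =>
    conv_rhs => rw [← hx, ← hy]
    rw [Finset.image_image]
    exact Finset.image_congr fun a _ => by simp [mul_assoc]
  | inv x _ hx =>
    conv_lhs => rw [← hx]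
    rw [Finset.image_image]
    conv_rhs => rw [← Finset.image_id (s := T)]
    exact Finset.image_congr fun a _ => by simp [mul_assoc]

theorem keeps_mem {q : G} (hq : q ∈ pairs D z) {T : Finset G} (hT : IsTetrad D z T) {a : G} (ha : a ∈ T) :
    q * a * q⁻¹ ∈ T := by
  have h := Finset.mem_image_of_mem (fun a => q * a * q⁻¹) ha
  rwa [keeps hD hprim ht hq hT] at h

variable {T₀ : Finset G} (hT₀ : IsTetrad D z T₀)

include hT₀

/-- The pair group is abelian modulo the product. -/
theorem conj_cases {p q : G} (hp : p ∈ pairs D z) (hq : q ∈ pairs D z) :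
    p * q * p⁻¹ = q ∨ p * q * p⁻¹ = z * q := by
  have hzc : ∀ x ∈ pairs D z, Commute x z := fun x hx =>
    Subgroup.mem_centralizer_singleton_iff.1 (pairs_le_centralizer hD hprim ht hx)
  have hzz := z_sq hD hprim ht hT₀
  have hz' : ∀ u : G, Commute u z → u⁻¹ * z * u = z := fun u hu => by
    rw [mul_assoc, hu.symm.eq, inv_mul_cancel_left]
  -- the conjugate of a generator
  have step : ∀ p ∈ pairs D z, ∀ g ∈ {g | ∃ T, IsTetrad D z T ∧ ∃ a ∈ T, ∃ b ∈ T, g = a * b},
      p * g * p⁻¹ = g ∨ p * g * p⁻¹ = z * g := by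
    intro p hp g hg
    induction hp using Subgroup.closure_induction with
    | mem x hx =>
      obtain ⟨T, hT, a, ha, b, hb, rfl⟩ := hx
      obtain ⟨T', hT', e, he, f, hf, rfl⟩ := hg
      exact pair_pair hD hprim ht hT hT' ha hb he hf
    | one => left; group
    | mul x y hx hy hx' hy' =>
      have e1 : x * y * g * (x * y)⁻¹ = x * (y * g * y⁻¹) * x⁻¹ := by group
      have e2 : x * (z * g) * x⁻¹ = z * (x * g * x⁻¹) := by
        rw [show x * (z * g) * x⁻¹ = x * z * (g * x⁻¹) by group, (hzc x hx).eq]; group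
      rcases hy' with h | h <;> rcases hx' with k | k <;> rw [e1, h]
      · exact Or.inl k
      · exact Or.inr k
      · exact Or.inr (by rw [e2, k])
      · exact Or.inl (by rw [e2, k, ← mul_assoc, hzz, one_mul])
    | inv x hx hx' =>
      rcases hx' with k | k
      · left
        conv_lhs => rw [← k]
        group
      · right
        have : x⁻¹ * g * x⁻¹⁻¹ = (x⁻¹ * z * x)⁻¹ * g := by
          conv_lhs => rw [show g = z⁻¹ * (x * g * x⁻¹) by rw [k, inv_mul_cancel_left]]
          group
        rw [this, hz' x (hzc x hx), z_inv hD hprim ht hT₀]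
  induction hq using Subgroup.closure_induction with
  | mem g hg => exact step p hp g hg
  | one => left; group
  | mul x y hx hy hx' hy' =>
    have e1 : p * (x * y) * p⁻¹ = p * x * p⁻¹ * (p * y * p⁻¹) := by group
    rcases hx' with h | h <;> rcases hy' with k | k <;> rw [e1, h, k]
    · exact Or.inl rfl
    · exact Or.inr (by rw [← mul_assoc, (hzc x hx).eq, mul_assoc])
    · exact Or.inr (by rw [mul_assoc])
    · refine Or.inl ?_
      rw [show z * x * (z * y) = z * (x * z) * y by group, (hzc x hx).eq, ← mul_assoc, hzz, one_mul]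
  | inv x hx hx' =>
    have e1 : p * x⁻¹ * p⁻¹ = (p * x * p⁻¹)⁻¹ := by group
    rcases hx' with h | h <;> rw [e1, h]
    · exact Or.inl rfl
    · right; rw [mul_inv_rev, z_inv hD hprim ht hT₀, ((hzc x hx).inv_left).eq]

theorem sq_cases {q : G} (hq : q ∈ pairs D z) : q * q = 1 ∨ q * q = z := by
  have hzc : ∀ x ∈ pairs D z, Commute x z := fun x hx =>
    Subgroup.mem_centralizer_singleton_iff.1 (pairs_le_centralizer hD hprim ht hx)
  have hzz := z_sq hD hprim ht hT₀
  induction hq using Subgroup.closure_induction with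
  | mem g hg =>
    obtain ⟨T, hT, a, ha, b, hb, rfl⟩ := hg
    exact Or.inl (pair_mul_self hD hT ha hb)
  | one => left; rw [one_mul]
  | mul x y hx hy hx' hy' =>
    have hyx : y * x * y⁻¹ = x ∨ y * x * y⁻¹ = z * x := conj_cases hD hprim ht hT₀ hy hx
    have e1 : x * y * (x * y) = x * (y * x * y⁻¹) * (y * y) := by group
    have e2 : x * (z * x) = z * (x * x) := by rw [← mul_assoc, (hzc x hx).eq, mul_assoc]
    rw [e1]
    rcases hyx with h | h <;> rw [h] <;> try rw [e2]
    all_goals
      rcases hx' with k | k <;> rcases hy' with k' | k' <;> rw [k, k']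
      all_goals simp [hzz]
  | inv x hx hx' =>
    rcases hx' with k | k
    · left; rw [← mul_inv_rev, k, inv_one]
    · right; rw [← mul_inv_rev, k, z_inv hD hprim ht hT₀]

theorem isPGroup_pairs : IsPGroup 2 (pairs D z) := by
  intro q
  refine ⟨2, Subtype.ext ?_⟩
  show (q : G) ^ (2 ^ 2) = 1
  rw [show (2 : ℕ) ^ 2 = 2 + 2 from rfl, pow_add, pow_two]
  rcases sq_cases hD hprim ht hT₀ q.2 with h | h <;> rw [h]
  · exact one_mul 1
  · exact z_sq hD hprim ht hT₀

omit hT₀ in
/-- An element commuting with the pair products of a tetrad fixes its members. -/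
theorem fix_of_commute {T : Finset G} (hT : IsTetrad D z T) {w : G}
    (hw : ∀ a ∈ T, ∀ b ∈ T, Commute w (a * b)) {a : G} (ha : a ∈ T) : Commute w a := by
  have hc : (T.erase a).card = 3 := by rw [Finset.card_erase_of_mem ha, hT.card]
  obtain ⟨b, c, e, hbc, -, -, hE⟩ := Finset.card_eq_three.1 hc
  have hb : b ∈ T.erase a := by rw [hE]; simp
  have hc' : c ∈ T.erase a := by rw [hE]; simp
  obtain ⟨hba, hbT⟩ := Finset.mem_erase.1 hb
  obtain ⟨hca, hcT⟩ := Finset.mem_erase.1 hc'
  have k1 := Parity.conj_pair hD hprim ht (hT.sub a ha) (b := b) ⟨hT.sub b hbT, hba, hT.comm a ha b hbT⟩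
    (hw a ha b hbT)
  have k2 := Parity.conj_pair hD hprim ht (hT.sub a ha) (b := c) ⟨hT.sub c hcT, hca, hT.comm a ha c hcT⟩
    (hw a ha c hcT)
  refine mul_inv_eq_iff_eq_mul.1 ?_
  rcases k1 with ⟨k, -⟩ | ⟨k, -⟩
  · exact k
  rcases k2 with ⟨k', -⟩ | ⟨k', -⟩
  · exact k'
  · exact absurd (k.symm.trans k') hbc

end CfsgLib.Fischer.FourProduct
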